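import Mathlib
import Cfsg.Agent.H4.Linear
import Cfsg.Agent.S2579

set_option autoImplicit false

namespace Cfsg.Agent.H9
open Matrix
open scoped MatrixGroups Pointwise

section
variable {F : Type*} [Field F]

def c3b (g : Matrix (Fin 3) (Fin 3) F) : F :=
  -(g 0 0 * g 1 1 - g 0 1 * g 1 0 + g 0 0 * g 2 2 - g 0 2 * g 2 0 + g 1 1 * g 2 2 - g 1 2 * g 2 1)

def c3a (g : Matrix (Fin 3) (Fin 3) F) : F := g 0 0 + g 1 1 + g 2 2

theorem ch3 (g : Matrix (Fin 3) (Fin 3) F) (hg : g.det = 1) :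
    g ^ 3 = c3a g • g ^ 2 + c3b g • g + (1 : F) • (1 : Matrix (Fin 3) (Fin 3) F) := by
  rw [det_fin_three] at hg
  ext i j
  fin_cases i <;> fin_cases j <;>
    simp [pow_succ, mul_apply, Fin.sum_univ_three, c3a, c3b] <;>
    first | ring1 | linear_combination hg

theorem det_sub3 (g : Matrix (Fin 3) (Fin 3) F) (hg : g.det = 1) (l : F) :
    (g - l • (1 : Matrix (Fin 3) (Fin 3) F)).det = 1 + c3b g * l + c3a g * l ^ 2 - l ^ 3 := by
  rw [det_fin_three] at hg ⊢
  simp [c3a, c3b]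
  linear_combination hg

theorem step3 {g : Matrix (Fin 3) (Fin 3) F} {a b : F}
    (h : g ^ 3 = a • g ^ 2 + b • g + (1 : F) • (1 : Matrix (Fin 3) (Fin 3) F)) {n : ℕ} {x y z : F}
    (hn : g ^ n = x • g ^ 2 + y • g + z • (1 : Matrix (Fin 3) (Fin 3) F)) :
    g ^ (n + 1) = (x * a + y) • g ^ 2 + (x * b + z) • g + x • (1 : Matrix (Fin 3) (Fin 3) F) := by
  rw [pow_succ, hn, add_mul, add_mul, smul_mul_assoc, smul_mul_assoc, smul_mul_assoc, ← pow_succ, h,
    ← pow_two, one_mul]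
  module

theorem mk_pow_eq_one {ι : Type*} [Fintype ι] [DecidableEq ι] (g : SpecialLinearGroup ι F) (n : ℕ) (z : F)
    (h : (g : Matrix ι ι F) ^ n = z • (1 : Matrix ι ι F)) :
    (QuotientGroup.mk g : ProjectiveSpecialLinearGroup ι F) ^ n = 1 := by
  rw [← QuotientGroup.mk_pow, QuotientGroup.eq_one_iff, Subgroup.mem_center_iff]
  intro k
  apply Subtype.ext
  simp [h]

variable [Fintype F]

theorem f4_two (hF : Fintype.card F = 4) : (2 : F) = 0 := by
  have h : ((4 : ℕ) : F) = 0 := by rw [← hF]; exact FiniteField.cast_card_eq_zero F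
  have : (2 : F) * 2 = 0 := by rw [← h]; norm_num
  rcases mul_eq_zero.mp this with h | h <;> exact h

theorem f4_pow (hF : Fintype.card F = 4) (x : F) : x ^ 4 = x := by
  rw [← hF]; exact FiniteField.pow_card x

theorem f4_cube (hF : Fintype.card F = 4) {x : F} (hx : x ≠ 0) : x ^ 3 = 1 := by
  have := f4_pow hF x
  apply mul_left_cancel₀ hx
  linear_combination this

theorem psl34_cases (hF : Fintype.card F = 4) (g : SL(3, F)) :
    (c3a (g : Matrix (Fin 3) (Fin 3) F) = 0 ∧ c3b (g : Matrix (Fin 3) (Fin 3) F) = 0) ∨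
    (QuotientGroup.mk g : PSL(3, F)) ^ 4 = 1 ∨ (QuotientGroup.mk g : PSL(3, F)) ^ 5 = 1 ∨
    (QuotientGroup.mk g : PSL(3, F)) ^ 7 = 1 := by
  have h3 := ch3 (g : Matrix (Fin 3) (Fin 3) F) g.2
  set a := c3a (g : Matrix (Fin 3) (Fin 3) F)
  set b := c3b (g : Matrix (Fin 3) (Fin 3) F)
  have h4 := step3 h3 h3
  have h5 := step3 h3 h4
  have h6 := step3 h3 h5
  have h7 := step3 h3 h6
  have h2 := f4_two hF
  have key : ∀ (n : ℕ) (x y z : F), (g : Matrix (Fin 3) (Fin 3) F) ^ n = x • (g : Matrix (Fin 3) (Fin 3) F) ^ 2 +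
      y • (g : Matrix (Fin 3) (Fin 3) F) + z • (1 : Matrix (Fin 3) (Fin 3) F) → x = 0 → y = 0 →
      (QuotientGroup.mk g : PSL(3, F)) ^ n = 1 := by
    intro n x y z h hx hy
    apply mk_pow_eq_one g n z
    rw [h, hx, hy]; simp
  clear_value a b
  by_cases ha : a = 0
  · by_cases hb : b = 0
    · exact Or.inl ⟨ha, hb⟩
    · have hb3 := f4_cube hF hb
      refine Or.inr (Or.inr (Or.inr (key _ _ _ _ h7 ?_ ?_)))
      · rw [ha]; linear_combination b * h2
      · rw [ha]; linear_combination hb3 + h2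
  · have ha3 := f4_cube hF ha
    by_cases hb : b = 0
    · refine Or.inr (Or.inr (Or.inr (key _ _ _ _ h7 ?_ ?_)))
      · rw [hb]; linear_combination a ^ 2 * ha3 + 2 * a ^ 2 * h2
      · rw [hb]; linear_combination ha3 + h2
    · have hb3 := f4_cube hF hb
      have : (b + a ^ 2) * (a ^ 2 * b + b ^ 2 + a) = 0 := by
        linear_combination hb3 + (1 + a * b) * ha3 + (1 + a ^ 2 * b ^ 2 + a * b) * h2
      rcases mul_eq_zero.mp this with h | h
      · refine Or.inr (Or.inl (key _ _ _ _ h4 ?_ ?_))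
        · linear_combination h
        · linear_combination a * h - ha3
      · refine Or.inr (Or.inr (Or.inl (key _ _ _ _ h5 ?_ ?_)))
        · linear_combination ha3 + (1 + a * b) * h2
        · linear_combination h

theorem psl34_pow (hF : Fintype.card F = 4) (x : PSL(3, F)) :
    x ^ 3 = 1 ∨ x ^ 4 = 1 ∨ x ^ 5 = 1 ∨ x ^ 7 = 1 := by
  obtain ⟨g, rfl⟩ := QuotientGroup.mk_surjective x
  rcases psl34_cases hF g with ⟨ha, hb⟩ | h
  · left
    apply mk_pow_eq_one g 3 1
    rw [ch3 _ g.2, ha, hb]; simp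
  · exact Or.inr h

theorem psl34_ne15 (hF : Fintype.card F = 4) (x : PSL(3, F)) : orderOf x ≠ 15 := by
  intro h
  rcases psl34_pow hF x with h' | h' | h' | h' <;>
    · have := orderOf_dvd_of_pow_eq_one h'
      rw [h] at this
      norm_num at this

theorem center_cube (hF : Fintype.card F = 4) {z : SL(3, F)} (hz : z ∈ Subgroup.center SL(3, F)) :
    z ^ 3 = 1 := by
  have hc : Nat.card (Subgroup.center SL(3, F)) = 3 := by
    rw [H4.card_center_SL, hF]; simp
  have := pow_card_eq_one' (x := (⟨z, hz⟩ : Subgroup.center SL(3, F)))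
  rw [hc] at this
  exact congrArg Subtype.val this

theorem isTransvection_of_sq {N : Matrix (Fin 3) (Fin 3) F} (h0 : N ≠ 0) (h : N * N = 0) : N.rank = 1 := by
  have h1 := Matrix.rank_add_rank_le_card_of_mul_eq_zero h
  have h2 : N.rank ≠ 0 := by
    intro h
    apply h0
    rw [Matrix.rank, Submodule.finrank_eq_zero, LinearMap.range_eq_bot] at h
    exact Matrix.toLin'.map_eq_zero_iff.mp h
  simp at h1
  omega

theorem psl34_inv_lift (hF : Fintype.card F = 4) (x : PSL(3, F)) (hx : orderOf x = 2) :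
    ∃ g : SL(3, F), (QuotientGroup.mk g : PSL(3, F)) = x ∧ Cfsg.IsTransvection (g : Matrix (Fin 3) (Fin 3) F) := by
  obtain ⟨g, rfl⟩ := QuotientGroup.mk_surjective x
  have h2 : (QuotientGroup.mk g : PSL(3, F)) ^ 2 = 1 := by rw [← hx]; exact pow_orderOf_eq_one _
  have hc : g ^ 2 ∈ Subgroup.center SL(3, F) := by
    rw [← QuotientGroup.eq_one_iff, QuotientGroup.mk_pow]; exact h2
  have h3 : (QuotientGroup.mk (g ^ 3) : PSL(3, F)) = QuotientGroup.mk g := by
    rw [QuotientGroup.mk_pow, pow_succ, h2, one_mul]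
  have h6 : (g ^ 3) * (g ^ 3) = 1 := by
    have := center_cube hF hc
    rw [← pow_mul] at this
    rw [← pow_add]; exact this
  have hsq : (((g ^ 3 : SL(3, F)) : Matrix (Fin 3) (Fin 3) F) - 1) * (((g ^ 3 : SL(3, F)) : Matrix (Fin 3) (Fin 3) F) - 1) = 0 := by
    have e : ((g ^ 3 : SL(3, F)) : Matrix (Fin 3) (Fin 3) F) * ((g ^ 3 : SL(3, F)) : Matrix (Fin 3) (Fin 3) F) = 1 := by
      exact congrArg Subtype.val h6
    generalize ((g ^ 3 : SL(3, F)) : Matrix (Fin 3) (Fin 3) F) = M at e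
    have : (M - 1) * (M - 1) = M * M + 1 - (2 : F) • M := by
      rw [two_smul]; noncomm_ring
    rw [this, e, f4_two hF, zero_smul, sub_zero, ← two_smul F, f4_two hF, zero_smul]
  refine ⟨g ^ 3, h3, isTransvection_of_sq ?_ hsq, hsq⟩
  intro h0
  have : g ^ 3 = 1 := Subtype.ext (sub_eq_zero.mp h0)
  rw [this] at h3
  rw [← h3] at hx
  simp at hx

theorem psl34_inv_conj (hF : Fintype.card F = 4) (x y : PSL(3, F)) (hx : orderOf x = 2) (hy : orderOf y = 2) :
    IsConj x y := by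
  obtain ⟨g, rfl, hg⟩ := psl34_inv_lift hF x hx
  obtain ⟨h, rfl, hh⟩ := psl34_inv_lift hF y hy
  exact (QuotientGroup.mk' _).map_isConj (Cfsg.Agent.S2579.result (le_refl 3) g h hg hh)

omit [Fintype F] in
theorem conj_diag3 (g : SL(3, F)) (d : Fin 3 → F) (hd : Function.Injective d)
    (h : ∀ i, ((g : Matrix (Fin 3) (Fin 3) F) - d i • (1 : Matrix (Fin 3) (Fin 3) F)).det = 0) :
    ∃ P : SL(3, F), (g : Matrix (Fin 3) (Fin 3) F) * P = P * diagonal d := by
  have h1 : ∀ i, ∃ v : Fin 3 → F, v ≠ 0 ∧ (g : Matrix (Fin 3) (Fin 3) F) *ᵥ v = d i • v := by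
    intro i
    obtain ⟨v, hv, hv'⟩ := Matrix.exists_mulVec_eq_zero_iff.mpr (h i)
    refine ⟨v, hv, ?_⟩
    rw [sub_mulVec, smul_mulVec, one_mulVec, sub_eq_zero] at hv'
    exact hv'
  choose v hv0 hv using h1
  have hli : LinearIndependent F v := by
    apply Module.End.eigenvectors_linearIndependent' (Matrix.toLin' (g : Matrix (Fin 3) (Fin 3) F)) d hd v
    intro i
    exact ⟨Module.End.mem_eigenspace_iff.mpr (by simpa using hv i), hv0 i⟩
  let Q : Matrix (Fin 3) (Fin 3) F := (Matrix.of v)ᵀ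
  have hQ : IsUnit Q := by
    rw [← Matrix.linearIndependent_cols_iff_isUnit]
    exact hli
  have hdet : Q.det ≠ 0 := ((Matrix.isUnit_iff_isUnit_det Q).mp hQ).ne_zero
  have e : (g : Matrix (Fin 3) (Fin 3) F) * Q = Q * diagonal d := by
    ext i j
    have := congrFun (hv j) i
    simp only [mulVec, dotProduct, Pi.smul_apply, smul_eq_mul] at this
    rw [mul_diagonal]
    simp only [mul_apply, Q, transpose_apply, of_apply]
    rw [this, mul_comm]
  refine ⟨⟨Q * diagonal ![Q.det⁻¹, 1, 1], ?_⟩, ?_⟩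
  · rw [det_mul, det_diagonal, Fin.prod_univ_three]
    simp [hdet]
  · show (g : Matrix (Fin 3) (Fin 3) F) * (Q * diagonal ![Q.det⁻¹, 1, 1]) = Q * diagonal ![Q.det⁻¹, 1, 1] * diagonal d
    rw [← mul_assoc, e, mul_assoc, mul_assoc, diagonal_mul_diagonal, diagonal_mul_diagonal]
    congr 2
    ext i
    exact mul_comm _ _

theorem psl34_three_conj (hF : Fintype.card F = 4) (x y : PSL(3, F)) (hx : orderOf x = 3) (hy : orderOf y = 3) :
    IsConj x y := by
  classical
  obtain ⟨w, hw0, hw1⟩ : ∃ w : F, w ≠ 0 ∧ w ≠ 1 := by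
    by_contra hcon
    push Not at hcon
    have : (Finset.univ : Finset F) ⊆ {0, 1} := by
      intro w _
      by_cases h : w = 0
      · simp [h]
      · simp [hcon w h]
    have h1 := Finset.card_le_card this
    have h2 : ({0, 1} : Finset F).card ≤ 2 := Finset.card_le_two
    rw [Finset.card_univ, hF] at h1
    omega
  have hw3 := f4_cube hF hw0
  let d : Fin 3 → F := ![1, w, w ^ 2]
  have hw2 : w ^ 2 ≠ 1 := by
    intro h; apply hw1; linear_combination hw3 - w * h
  have hw4 : w ^ 2 ≠ w := by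
    intro h; apply hw1; apply mul_left_cancel₀ hw0; linear_combination h
  have hd : Function.Injective d := by
    intro i j hij
    fin_cases i <;> fin_cases j <;> simp [d] at hij ⊢ <;>
      first | exact hw1 hij | exact hw1 hij.symm | exact hw2 hij | exact hw2 hij.symm | exact hw4 hij | exact hw4 hij.symm | simp_all
  have hd3 : ∀ i, d i ^ 3 = 1 := by
    intro i
    fin_cases i
    · simp [d]
    · simpa [d] using hw3
    · show (w ^ 2) ^ 3 = 1
      rw [← pow_mul, mul_comm, pow_mul, hw3, one_pow]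
  have key : ∀ g : SL(3, F), orderOf (QuotientGroup.mk g : PSL(3, F)) = 3 →
      ∃ P : SL(3, F), (g : Matrix (Fin 3) (Fin 3) F) * P = P * diagonal d := by
    intro g hg
    rcases psl34_cases hF g with ⟨ha, hb⟩ | h' | h' | h'
    · apply conj_diag3 g d hd
      intro i
      rw [det_sub3 _ g.2, ha, hb, hd3]; ring
    all_goals
      have := orderOf_dvd_of_pow_eq_one h'
      rw [hg] at this
      norm_num at this
  obtain ⟨g, rfl⟩ := QuotientGroup.mk_surjective x
  obtain ⟨h, rfl⟩ := QuotientGroup.mk_surjective y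
  obtain ⟨P, hP⟩ := key g hx
  obtain ⟨Q, hQ⟩ := key h hy
  apply (QuotientGroup.mk' _).map_isConj
  rw [_root_.isConj_iff]
  refine ⟨Q * P⁻¹, ?_⟩
  have e1 : P⁻¹ * g * P = Q⁻¹ * h * Q := by
    apply Subtype.ext
    have a1 : ((P⁻¹ : SL(3, F)) : Matrix (Fin 3) (Fin 3) F) * P = 1 :=
      congrArg Subtype.val (inv_mul_cancel P)
    have a2 : ((Q⁻¹ : SL(3, F)) : Matrix (Fin 3) (Fin 3) F) * Q = 1 :=
      congrArg Subtype.val (inv_mul_cancel Q)
    show ((P⁻¹ : SL(3, F)) : Matrix (Fin 3) (Fin 3) F) * g * P = ((Q⁻¹ : SL(3, F)) : Matrix (Fin 3) (Fin 3) F) * h * Q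
    rw [mul_assoc, mul_assoc, hP, hQ, ← mul_assoc, ← mul_assoc, a1, a2]
  calc Q * P⁻¹ * g * (Q * P⁻¹)⁻¹ = Q * (P⁻¹ * g * P) * Q⁻¹ := by group
    _ = h := by rw [e1]; group

end
end Cfsg.Agent.H9
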