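import Cfsg.Prelude.Def_AxialAlgebras

/-! Majorana pairs: decomposition, fusion rules, Sakuma's relation. -/

set_option autoImplicit false

namespace Cfsg.Agent.H9

open Cfsg.Axial

variable {V : Type*} [AddCommGroup V] [Module ℝ V] {mul : V →ₗ[ℝ] V →ₗ[ℝ] V} {B : LinearMap.BilinForm ℝ V}
  {μ ν : V ≃ₗ[ℝ] V} {a b : V}

theorem mem_eig {c : ℝ} {x : V} : x ∈ eigen mul a c ↔ mul a x = c • x := Module.End.mem_eigenspace_iff

theorem maj_dec0 (h : IsMajoranaPair mul B μ a) (v : V) : ∃ (l : ℝ) (x y z : V), v = l • a + x + y + z ∧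
    mul a x = 0 ∧ mul a y = (1 / 4 : ℝ) • y ∧ mul a z = (1 / 32 : ℝ) • z ∧ μ v = l • a + x + y - z := by
  have hv : v ∈ eigenSum mul a majoranaSpectrum := h.2.2.1.1.2.2.1 ▸ trivial
  simp only [eigenSum, majoranaSpectrum, iSup_insert, iSup_singleton, Submodule.mem_sup] at hv
  obtain ⟨w, hw, _, ⟨x, hx, _, ⟨y, hy, z, hz, rfl⟩, rfl⟩, rfl⟩ := hv
  have k : μ (w + x + y) = w + x + y := h.2.2.2.1 _ (by
    simp only [eigenSum, iSup_insert, iSup_singleton]
    exact add_mem (add_mem (Submodule.mem_sup_left hw) (Submodule.mem_sup_right (Submodule.mem_sup_left hx)))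
      (Submodule.mem_sup_right (Submodule.mem_sup_right hy)))
  have k' : μ z = -z := h.2.2.2.2 z hz
  rw [h.2.2.1.2] at hw
  obtain ⟨l, rfl⟩ := Submodule.mem_span_singleton.1 hw
  exact ⟨l, x, y, z, by abel, by simpa using mem_eig.1 hx, mem_eig.1 hy, mem_eig.1 hz, by
    rw [← add_assoc, ← add_assoc, map_add, k, k', sub_eq_add_neg]⟩

theorem maj_idem (h : IsMajoranaPair mul B μ a) : mul a a = a := h.2.2.1.1.2.1

theorem maj_fix (h : IsMajoranaPair mul B μ a) {x : V} (hx : x ∈ eigenSum mul a {1, 0, 1 / 4}) : μ x = x :=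
  h.2.2.2.1 x hx

theorem maj_unique (h : IsMajoranaPair mul B μ a) (h' : IsMajoranaPair mul B ν a) : μ = ν := by
  ext v
  obtain ⟨l, x, y, z, rfl, h1, h2, h3, h4⟩ := maj_dec0 h v
  have k' : ν z = -z := h'.2.2.2.2 z (mem_eig.2 h3)
  rw [h4, map_add, k', maj_fix h', sub_eq_add_neg]
  simp only [eigenSum, iSup_insert, iSup_singleton]
  exact add_mem (add_mem (Submodule.mem_sup_left (Submodule.smul_mem _ _ (mem_eig.2 (by rw [maj_idem h, one_smul]))))
    (Submodule.mem_sup_right (Submodule.mem_sup_left (mem_eig.2 (by rw [h1, zero_smul])))))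
      (Submodule.mem_sup_right (Submodule.mem_sup_right (mem_eig.2 h2)))

theorem maj_self (h : IsMajoranaPair mul B μ a) : μ a = a := maj_fix h (by
  simp only [eigenSum, iSup_insert]
  exact Submodule.mem_sup_left (mem_eig.2 (by rw [maj_idem h, one_smul])))

theorem maj_sq (h : IsMajoranaPair mul B μ a) (v : V) : μ (μ v) = v := by
  obtain ⟨l, x, y, z, rfl, h1, h2, h3, h4⟩ := maj_dec0 h v
  have k' : μ z = -z := h.2.2.2.2 z (mem_eig.2 h3)
  rw [h4, map_sub, k']
  rw [map_add, k'] at h4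
  linear_combination (norm := module) h4

theorem fus00 (h : IsMajoranaPair mul B μ a) {x y : V} (hx : mul a x = 0) (hy : mul a y = 0) :
    mul a (mul x y) = 0 := by
  have := h.2.2.1.1.2.2.2 0 (by simp [majoranaSpectrum]) 0 (by simp [majoranaSpectrum]) x
    (mem_eig.2 (by simpa using hx)) y (mem_eig.2 (by simpa using hy))
  rw [show monsterLaw (1 / 4 : ℝ) (1 / 32) 0 0 = {0} by norm_num [monsterLaw], eigenSum, iSup_singleton] at this
  simpa using mem_eig.1 this

theorem fus04 (h : IsMajoranaPair mul B μ a) {x y : V} (hx : mul a x = 0) (hy : mul a y = (1 / 4 : ℝ) • y) :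
    mul a (mul x y) = (1 / 4 : ℝ) • mul x y := by
  have := h.2.2.1.1.2.2.2 0 (by simp [majoranaSpectrum]) (1 / 4) (by simp [majoranaSpectrum]) x
    (mem_eig.2 (by simpa using hx)) y (mem_eig.2 hy)
  rw [show monsterLaw (1 / 4 : ℝ) (1 / 32) 0 (1 / 4) = {1 / 4} by norm_num [monsterLaw], eigenSum,
    iSup_singleton] at this
  exact mem_eig.1 this

theorem fus44 (h : IsMajoranaPair mul B μ a) {x y : V} (hx : mul a x = (1 / 4 : ℝ) • x)
    (hy : mul a y = (1 / 4 : ℝ) • y) : ∃ (k : ℝ) (w : V), mul x y = k • a + w ∧ mul a w = 0 := by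
  have := h.2.2.1.1.2.2.2 (1 / 4) (by simp [majoranaSpectrum]) (1 / 4) (by simp [majoranaSpectrum]) x
    (mem_eig.2 hx) y (mem_eig.2 hy)
  rw [show monsterLaw (1 / 4 : ℝ) (1 / 32) (1 / 4) (1 / 4) = {1, 0} by norm_num [monsterLaw], eigenSum,
    iSup_insert, iSup_singleton, h.2.2.1.2, Submodule.mem_sup] at this
  obtain ⟨u, hu, w, hw, e⟩ := this
  obtain ⟨k, rfl⟩ := Submodule.mem_span_singleton.1 hu
  exact ⟨k, w, e.symm, by simpa using mem_eig.1 hw⟩

theorem maj_conj (h : IsMajoranaPair mul B μ a) (h' : IsMajoranaPair mul B ν b) :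
    IsMajoranaPair mul B (ν * μ * ν) (ν a) := by
  have e : ∀ c x, x ∈ eigen mul (ν a) c ↔ ν x ∈ eigen mul a c := fun c x => by
    rw [mem_eig, mem_eig, ← ν.injective.eq_iff, h'.1, maj_sq h', map_smul]
  have e' : ∀ S, eigenSum mul (ν a) S = (eigenSum mul a S).map (ν : V →ₗ[ℝ] V) := fun S => by
    simp only [eigenSum, Submodule.map_iSup]
    exact iSup_congr fun c => iSup_congr fun _ => Submodule.ext fun x => (e c x).trans
      ⟨fun h => ⟨_, h, maj_sq h' x⟩, by rintro ⟨y, hy, rfl⟩; rw [LinearEquiv.coe_coe, maj_sq h']; exact hy⟩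
  refine ⟨fun u v => by simp [h.1, h'.1], fun u v => by simp [h.2.1, h'.2.1], ⟨⟨by simpa using h.2.2.1.1.1,
    by rw [← h'.1, maj_idem h], by rw [e', h.2.2.1.1.2.2.1]; simp, fun c hc d hd u hu v hv => ?_⟩, ?_⟩, ?_, ?_⟩
  · rw [e']
    exact ⟨_, h.2.2.1.1.2.2.2 c hc d hd _ ((e c u).1 hu) _ ((e d v).1 hv), by
      simp only [LinearEquiv.coe_coe, h'.1, maj_sq h']⟩
  · ext x
    rw [e, h.2.2.1.2, Submodule.mem_span_singleton, Submodule.mem_span_singleton]
    exact exists_congr fun c => by rw [← ν.injective.eq_iff, maj_sq h', map_smul]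
  · rw [e']
    rintro _ ⟨y, hy, rfl⟩
    simp [maj_sq h', maj_fix h hy]
  · intro v hv
    have : μ (ν v) = -ν v := h.2.2.2.2 _ ((e _ v).1 hv)
    simp [this, maj_sq h']

variable (hV : IsMajoranaAmbient mul B)
include hV

theorem maj_orth {x y : V} {c d : ℝ} (hx : mul a x = c • x) (hy : mul a y = d • y) (n : c ≠ d) : B x y = 0 := by
  have := hV.2.2.2.1 x a y
  rw [hV.1 x a, hx, hy] at this
  simp only [map_smul, LinearMap.smul_apply, smul_eq_mul] at this
  exact (mul_eq_zero.1 (show (c - d) * B x y = 0 by linear_combination -this)).resolve_left (sub_ne_zero.2 n)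

theorem maj_nonneg (x : V) : 0 ≤ B x x := by
  by_cases h : x = 0
  · simp [h]
  · exact (hV.2.2.1 x h).le

theorem maj_dec (h : IsMajoranaPair mul B μ a) (ha : B a a = 1) (v : V) : ∃ x y z : V,
    v = B a v • a + x + y + z ∧ mul a x = 0 ∧ mul a y = (1 / 4 : ℝ) • y ∧ mul a z = (1 / 32 : ℝ) • z ∧
      μ v = B a v • a + x + y - z := by
  obtain ⟨l, x, y, z, e, h1, h2, h3, h4⟩ := maj_dec0 h v
  have i : mul a a = (1 : ℝ) • a := by rw [maj_idem h, one_smul]
  obtain rfl : l = B a v := by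
    rw [e]
    simp [ha, maj_orth hV i (h1.trans (zero_smul ℝ x).symm) one_ne_zero, maj_orth hV i h2 (by norm_num),
      maj_orth hV i h3 (by norm_num)]
  exact ⟨x, y, z, e, h1, h2, h3, h4⟩

theorem maj_eq (ha : B a a = 1) (hb : B b b = 1) (h : 1 ≤ B a b) : a = b := by
  by_contra n
  have := hV.2.2.1 _ (sub_ne_zero.2 n)
  simp only [map_sub, LinearMap.sub_apply, ha, hb, hV.2.1 b a] at this
  linarith

theorem maj_bound (h : IsMajoranaPair mul B μ a) (ha : B a a = 1) (hb : B b b = 1) (ib : mul b b = b) (n : a ≠ b) :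
    0 ≤ B a b ∧ B a b ≤ 1 / 3 ∧ (μ b ≠ b → B a b < 1 / 3) := by
  have h0 := (maj_nonneg hV _).trans (hV.2.2.2.2 a b)
  rw [maj_idem h, ib] at h0
  have h1 : B a b < 1 := not_le.1 fun c => n (maj_eq hV ha hb c)
  obtain ⟨x, y, z, e, e1, e2, e3, e4⟩ := maj_dec hV h ha b
  have i : mul a a = (1 : ℝ) • a := by rw [maj_idem h, one_smul]
  have e0 := e1.trans (zero_smul ℝ x).symm
  have k := hV.2.2.2.1 a b b
  rw [ib] at k
  generalize B a b = l at *
  have o1 := maj_orth hV i e0 one_ne_zero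
  have o2 := maj_orth hV i e2 (by norm_num)
  have o3 := maj_orth hV i e3 (by norm_num)
  have o4 := maj_orth hV e0 e2 (by norm_num)
  have o5 := maj_orth hV e0 e3 (by norm_num)
  have o6 := maj_orth hV e2 e3 (by norm_num)
  have hz : μ b ≠ b → 0 < B z z := fun c => hV.2.2.1 z fun c' => c (by rw [e4, e, c']; simp)
  rw [e] at k hb
  simp only [map_add, map_smul, LinearMap.add_apply, LinearMap.smul_apply, smul_eq_mul, i, e1, e2, e3, ha, o1, o2, o3,
    o4, o5, o6, hV.2.1 x a, hV.2.1 y a, hV.2.1 z a, hV.2.1 y x, hV.2.1 z x, hV.2.1 z y, map_zero,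
    LinearMap.zero_apply] at k hb
  have := maj_nonneg hV x
  have := maj_nonneg hV z
  exact ⟨h0, by nlinarith, fun c => by nlinarith [hz c]⟩

/-- the invariant part of the product -/
noncomputable def sig (mul : V →ₗ[ℝ] V →ₗ[ℝ] V) (a v : V) : V := mul a v - (1 / 32 : ℝ) • (a + v)

theorem sig_spec (h : IsMajoranaPair mul B μ a) (ha : B a a = 1) (v : V) : μ (sig mul a v) = sig mul a v ∧
    mul a ((-4 : ℝ) • sig mul a v + (3 * B a v - 1 / 8) • a + (7 / 16 : ℝ) • (v + μ v)) = 0 ∧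
    mul a ((4 : ℝ) • sig mul a v + (1 / 8 - 4 * B a v) • a + (1 / 16 : ℝ) • (v + μ v)) =
      (1 / 4 : ℝ) • ((4 : ℝ) • sig mul a v + (1 / 8 - 4 * B a v) • a + (1 / 16 : ℝ) • (v + μ v)) := by
  obtain ⟨x, y, z, e, e1, e2, e3, e4⟩ := maj_dec hV h ha v
  generalize B a v = l at *
  have e5 : mul a v = l • a + (1 / 4 : ℝ) • y + (1 / 32 : ℝ) • z := by
    rw [e]; simp [maj_idem h, e1, e2, e3]
  have e6 : mul a (μ v) = l • a + (1 / 4 : ℝ) • y - (1 / 32 : ℝ) • z := by
    rw [e4]; simp [maj_idem h, e1, e2, e3]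
  refine ⟨?_, ?_, ?_⟩
  · rw [sig, map_sub, h.1, map_smul, map_add, maj_self h, e5, e6]
    linear_combination (norm := module) (1 / 32 : ℝ) • e - (1 / 32 : ℝ) • e4
  · rw [← e1]; congr 1
    rw [sig, e5]
    linear_combination (norm := module) (9 / 16 : ℝ) • e + (7 / 16 : ℝ) • e4
  · rw [show (4 : ℝ) • sig mul a v + (1 / 8 - 4 * l) • a + (1 / 16 : ℝ) • (v + μ v) = y from ?_, e2]
    rw [sig, e5]
    linear_combination (norm := module) (-1 / 16 : ℝ) • e + (1 / 16 : ℝ) • e4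

theorem sig_mul (h : IsMajoranaPair mul B μ a) (ha : B a a = 1) (v : V) :
    mul a (μ v) = sig mul a v + (1 / 32 : ℝ) • (a + μ v) ∧ mul a (sig mul a v) =
      (7 / 32 : ℝ) • sig mul a v + (3 / 4 * B a v - 25 / 1024) • a + (7 / 2048 : ℝ) • (v + μ v) := by
  obtain ⟨h1, h2, -⟩ := sig_spec hV h ha v
  have e : mul a (μ v) = sig mul a v + (1 / 32 : ℝ) • (a + μ v) := by
    rw [← h1, sig, map_sub, h.1, map_smul, map_add, maj_self h]; module
  refine ⟨e, ?_⟩
  have e' : mul a v = sig mul a v + (1 / 32 : ℝ) • (a + v) := by rw [sig]; module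
  simp only [map_add, map_smul, maj_idem h, e] at h2
  rw [e'] at h2
  linear_combination (norm := module) (-1 / 4 : ℝ) • h2

theorem sakuma (h : IsMajoranaPair mul B μ a) (h' : IsMajoranaPair mul B ν b) (ha : B a a = 1) (hb : B b b = 1) :
    ∃ k : ℝ, mul a (sig mul b (μ b)) = (-19 / 48 + 32 / 3 * B a b) • sig mul a b +
      (-85 / 1024 - 8 / 3 * k + 13 / 3 * B a b - 40 / 3 * B a b ^ 2) • a + (-19 / 3072 + B a b / 6) • (b + μ b) +
      (7 / 96 : ℝ) • sig mul a (ν a) + (7 / 6144 : ℝ) • (ν a + μ (ν a)) ∧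
    mul (sig mul a b) (sig mul a b) = (-13 / 1536 - 5 / 12 * B a b) • sig mul a b +
      (147 / 32768 + 7 / 24 * k - 119 / 384 * B a b + 35 / 24 * B a b ^ 2) • a +
      (-245 / 196608 + 49 / 768 * B a b) • (b + μ b) + (49 / 196608 : ℝ) • (ν a + μ (ν a)) +
      (7 / 2048 : ℝ) • sig mul b (μ b) + (-7 / 1536 : ℝ) • sig mul a (ν a) := by
  obtain ⟨s1, s2, s3⟩ := sig_spec hV h ha b
  obtain ⟨am, as⟩ := sig_mul hV h ha b
  obtain ⟨-, ps⟩ := sig_mul hV h' hb a
  obtain ⟨aM, -⟩ := sig_mul hV h ha (ν a)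
  rw [show sig mul b a = sig mul a b by rw [sig, sig, hV.1, add_comm], hV.2.1 b a] at ps
  have ms := congrArg μ ps
  simp only [h.1, map_add, map_smul, s1, maj_self h] at ms
  have ap : mul a b = sig mul a b + (1 / 32 : ℝ) • (a + b) := by rw [sig]; module
  have aP : mul a (ν a) = sig mul a (ν a) + (1 / 32 : ℝ) • (a + ν a) := by rw [sig]; module
  have pm : mul b (μ b) = sig mul b (μ b) + (1 / 32 : ℝ) • (b + μ b) := by rw [sig]; module
  have mm : mul (μ b) (μ b) = μ b := by rw [← h.1, maj_idem h']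
  have f1 := fus00 h s2 s2
  have f2 := fus04 h s2 s3
  obtain ⟨k, w, f3, f4⟩ := fus44 h s3 s3
  have aa := maj_idem h
  have pp := maj_idem h'
  generalize sig mul a b = s at *
  generalize sig mul b (μ b) = t at *
  generalize sig mul a (ν a) = u at *
  generalize μ (ν a) = M at *
  generalize ν a = P at *
  generalize μ b = m at *
  generalize B a b = l at *
  generalize hx : (-4 : ℝ) • s + (3 * l - 1 / 8) • a + (7 / 16 : ℝ) • (b + m) = x at *
  generalize hy : (4 : ℝ) • s + (1 / 8 - 4 * l) • a + (1 / 16 : ℝ) • (b + m) = y at *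
  have e1 : mul x x + mul x y = (-1 + 3 * l) • s + (-9 / 512 + 3 / 32 * l) • a + (143 / 512 - 93 / 64 * l) • (b + m) +
      (-7 / 1024 : ℝ) • (P + M) + (7 / 16 : ℝ) • t := by
    rw [← map_add, show x + y = (-l) • a + (1 / 2 : ℝ) • (b + m) by rw [← hx, ← hy]; module, ← hx]
    simp only [map_add, map_smul, LinearMap.add_apply, LinearMap.smul_apply, hV.1 s a, hV.1 s b, hV.1 s m,
      hV.1 b a, hV.1 m a, hV.1 m b, aa, pp, mm, am, as, ps, ms, ap, pm]
    module
  have e2 : mul x y + mul y y = (1 - 5 * l) • s + (9 / 512 - 5 / 32 * l + l ^ 2) • a +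
      (-7 / 512 + 91 / 64 * l) • (b + m) + (7 / 1024 : ℝ) • (P + M) + (1 / 16 : ℝ) • t := by
    rw [hV.1 x y, ← map_add, show x + y = (-l) • a + (1 / 2 : ℝ) • (b + m) by rw [← hx, ← hy]; module, ← hy]
    simp only [map_add, map_smul, LinearMap.add_apply, LinearMap.smul_apply, hV.1 s a, hV.1 s b, hV.1 s m,
      hV.1 b a, hV.1 m a, hV.1 m b, aa, pp, mm, am, as, ps, ms, ap, pm]
    module
  have g1 := congrArg (mul a) e1
  have g2 := congrArg (mul a) e2
  rw [f3] at g2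
  simp only [map_add, map_smul, f1, f2, f4, aa, am, as, ap, aP, aM] at g1 g2
  have e3 : mul x x = mul x x := rfl
  conv_rhs at e3 => rw [← hx]
  simp only [map_add, map_smul, LinearMap.add_apply, LinearMap.smul_apply, hV.1 s a, hV.1 s b, hV.1 s m,
    hV.1 b a, hV.1 m a, hV.1 m b, aa, pp, mm, am, as, ps, ms, ap, pm] at e3
  exact ⟨k, by linear_combination (norm := module) (8 / 3 : ℝ) • g2 - (8 / 3 : ℝ) • g1,
    by linear_combination (norm := module) (1 / 16 : ℝ) • e1 - (1 / 16 : ℝ) • e3 + (1 / 24 : ℝ) • g1 -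
      (7 / 24 : ℝ) • g2⟩

end Cfsg.Agent.H9
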