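import Mathlib
import Cfsg.Agent.H4.Order
import Cfsg.Agent.L.PCyc2

set_option autoImplicit false

namespace Cfsg.Agent.H9
open Module H4

section
variable {F : Type*} [Field F]

def qaE (a b : F) : QuadraticAlgebra F (-b) a ≃ₗ[F] ((Fin 0 ⊕ Fin 0) ⊕ Fin 2 → F) where
  toFun z := Sum.elim 0 ![z.re, z.im]
  invFun v := ⟨v (.inr 0), v (.inr 1)⟩
  map_add' z w := by
    ext (i | i)
    · simp
    · fin_cases i <;> simp
  map_smul' c z := by
    ext (i | i)
    · simp
    · fin_cases i <;> simp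
  left_inv z := by ext <;> simp
  right_inv v := by
    ext ((i | i) | i)
    · exact i.elim0
    · exact i.elim0
    · fin_cases i <;> simp

theorem qaE_Q (a b : F) (z : QuadraticAlgebra F (-b) a) :
    ((minusF 0 a b).comap (qaE a b : _ →ₗ[F] _)).Q z = z.norm := by
  simp [minusF_Q, quadFormMinus, qaE, QuadraticAlgebra.norm_def]
  ring

def qaStar (a b : F) : QuadraticAlgebra F a b ≃ₗ[F] QuadraticAlgebra F a b where
  toFun := star
  invFun := star
  map_add' := star_add
  map_smul' c z := by ext <;> simp; ring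
  left_inv := star_star
  right_inv := star_star

theorem minus_dihedral [Fintype F] (a b : F)
    (hab : ∀ z₁ z₂ : F, z₁ ^ 2 + a * z₁ * z₂ + b * z₂ ^ 2 = 0 → z₁ = 0 ∧ z₂ = 0) :
    Nonempty ((minusF 0 a b).iso ≃* DihedralGroup (Fintype.card F + 1)) := by
  haveI : Fact (∀ r : F, r ^ 2 ≠ -b + a * r) := ⟨fun r hr => by
    have := (hab r (-1) (by linear_combination hr)).2
    simp at this⟩
  let K := QuadraticAlgebra F (-b) a
  let f := (minusF 0 a b).comap (qaE a b : K →ₗ[F] _)
  have hi : CForm.Isom f (minusF 0 a b) := CForm.isom_comap _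
  haveI : FiniteDimensional F K := (qaE a b).symm.finiteDimensional
  haveI : Finite K := Finite.of_equiv _ (qaE a b).symm.toEquiv
  have hn : f.Nondeg := hi.symm.nondeg (minusF_nondeg 0 hab)
  have hQ : ∀ z, f.Q z = z.norm := qaE_Q a b
  have ha : f.Aniso := fun z hz => by
    rw [hQ] at hz; exact QuadraticAlgebra.norm_eq_zero_iff_eq_zero.mp hz
  obtain ⟨h1, h2⟩ := hn.aniso_plane_cnt ha (by rw [hi.finrank_eq]; simp)
  obtain ⟨e⟩ := hi.nonempty_iso
  suffices Nonempty (f.iso ≃* DihedralGroup (Fintype.card F + 1)) from ⟨e.symm.trans this.some⟩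
  haveI : Finite f.iso := Nat.finite_of_card_ne_zero (by omega)
  let U : Subgroup Kˣ := (Units.map (QuadraticAlgebra.norm : K →* F)).ker
  have hU : ∀ u : Kˣ, u ∈ U ↔ (u : K).norm = 1 := fun u => by
    simp [U, MonoidHom.mem_ker, Units.ext_iff]
  have hc : Nat.card U = Fintype.card F + 1 := by
    rw [← h1 1 one_ne_zero, CForm.cnt]
    refine Nat.card_congr (Equiv.ofBijective (fun u => ⟨u.1, by rw [hQ]; exact (hU _).mp u.2⟩) ⟨?_, ?_⟩)
    · intro u v h
      exact Subtype.ext (Units.ext (congrArg Subtype.val h))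
    · rintro ⟨z, hz⟩
      rw [hQ] at hz
      have : z ≠ 0 := by rintro rfl; simp at hz
      exact ⟨⟨Units.mk0 z this, (hU _).mpr hz⟩, rfl⟩
  let μ : U →* f.iso :=
    { toFun := fun u => ⟨DistribMulAction.toLinearEquiv F K u.1, by
        rw [CForm.orth_mem_iso]
        intro x
        rw [hQ, hQ]
        show QuadraticAlgebra.norm ((u.1 : K) * x) = _
        rw [map_mul, (hU _).mp u.2, one_mul]⟩
      map_one' := by ext x : 2; simp
      map_mul' := fun u v => by ext x : 2; simp [mul_smul] }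
  have hμ : ∀ (u : U) (x : K), (μ u).1 x = (u.1 : K) * x := fun _ _ => rfl
  have hinj : Function.Injective μ := by
    intro u v h
    have := hμ u 1
    rw [h, hμ, mul_one, mul_one] at this
    exact Subtype.ext (Units.ext this.symm)
  obtain ⟨u, hu⟩ := IsCyclic.exists_ofOrder_eq_natCard (α := U)
  let s : f.iso := ⟨qaStar _ _, by
    rw [CForm.orth_mem_iso]; intro x; rw [hQ, hQ]; exact QuadraticAlgebra.norm_star x⟩
  have hs : ∀ x : K, s.1 x = star x := fun _ => rfl
  have hs2 : s ^ 2 = 1 := by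
    ext x : 2
    exact star_star x
  refine L.nonempty_equiv_dihedral (a := μ u) (b := s) ?_ ?_ hs2 ?_ h2
  · rw [orderOf_injective μ hinj, hu, hc]
  · rw [← MonoidHom.map_zpowers]
    rintro ⟨v, -, hv⟩
    have a1 := hμ v 1
    rw [hv, hs, star_one, mul_one] at a1
    have a2 := hμ v QuadraticAlgebra.omega
    rw [hv, hs, ← a1, one_mul] at a2
    have a3 := congrArg QuadraticAlgebra.re a2
    have a4 := congrArg QuadraticAlgebra.im a2
    rw [QuadraticAlgebra.re_star] at a3
    rw [QuadraticAlgebra.im_star] at a4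
    simp only [QuadraticAlgebra.omega_re, QuadraticAlgebra.omega_im] at a3 a4
    apply aniso_disc_ne hab
    linear_combination (-a) * a3 - 2 * b * a4
  · rw [mul_inv_eq_iff_eq_mul, eq_inv_mul_iff_mul_eq]
    ext x : 2
    show (μ u).1 (s.1 ((μ u).1 x)) = s.1 x
    rw [hμ, hμ, hs, hs, star_mul', ← mul_assoc, ← QuadraticAlgebra.algebraMap_norm_eq_mul_star,
      (hU _).mp u.2, map_one, one_mul]

def plusD (u : Fˣ) : (Fin 1 ⊕ Fin 1 → F) ≃ₗ[F] (Fin 1 ⊕ Fin 1 → F) where
  toFun v := Sum.elim (fun i => u * v (.inl i)) (fun i => (u⁻¹ : Fˣ) * v (.inr i))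
  invFun v := Sum.elim (fun i => (u⁻¹ : Fˣ) * v (.inl i)) (fun i => u * v (.inr i))
  map_add' z w := by ext (i | i) <;> simp [mul_add]
  map_smul' c z := by ext (i | i) <;> simp <;> ring
  left_inv z := by ext (i | i) <;> simp
  right_inv z := by ext (i | i) <;> simp

theorem plus_dihedral [Fintype F] :
    Nonempty ((plusF F 1).iso ≃* DihedralGroup (Fintype.card F - 1)) := by
  have h2 := (plusF_nondeg (F := F) 1).orth_card_plus le_rfl (plusF_wi 1) (by simp)
  simp only [tsub_self, mul_zero, pow_zero, mul_one, pow_one, Finset.range_zero, Finset.prod_empty] at h2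
  have hq : 1 < Fintype.card F := Fintype.one_lt_card
  haveI : Finite (plusF F 1).iso := Nat.finite_of_card_ne_zero (by omega)
  let μ : Fˣ →* (plusF F 1).iso :=
    { toFun := fun u => ⟨plusD u, by
        rw [CForm.orth_mem_iso]
        intro x
        simp [plusF_Q, quadFormPlus, plusD]
        field_simp⟩
      map_one' := by ext x (i | i) <;> simp [plusD]
      map_mul' := fun u v => by ext x (i | i) <;> simp [plusD] <;> ring }
  have hμ : ∀ (u : Fˣ) x, (μ u).1 x = Sum.elim (fun i => u * x (.inl i)) (fun i => (u⁻¹ : Fˣ) * x (.inr i)) :=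
    fun _ _ => rfl
  have hinj : Function.Injective μ := by
    intro u v h
    have := congrFun (hμ u 1) (.inl 0)
    rw [h, hμ] at this
    simp at this
    exact Units.ext this.symm
  obtain ⟨u, hu⟩ := IsCyclic.exists_ofOrder_eq_natCard (α := Fˣ)
  let s : (plusF F 1).iso := ⟨LinearEquiv.funCongrLeft F F (Equiv.sumComm _ _), by
    rw [CForm.orth_mem_iso]; intro x
    simp [plusF_Q, quadFormPlus, mul_comm]⟩
  have hs : ∀ x, s.1 x = x ∘ Sum.swap := fun _ => rfl
  refine L.nonempty_equiv_dihedral (a := μ u) (b := s) ?_ ?_ ?_ ?_ h2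
  · rw [orderOf_injective μ hinj, hu, Nat.card_units, Nat.card_eq_fintype_card]
  · rw [← MonoidHom.map_zpowers]
    rintro ⟨v, -, hv⟩
    have a1 := congrFun (hμ v (Pi.single (.inr 0) 1)) (.inl 0)
    rw [hv, hs] at a1
    simp at a1
  · ext x (i | i) <;> rfl
  · rw [mul_inv_eq_iff_eq_mul, eq_inv_mul_iff_mul_eq]
    ext x : 2
    show (μ u).1 (s.1 ((μ u).1 x)) = s.1 x
    rw [hμ, hμ, hs, hs]
    ext (i | i) <;> simp

end
end Cfsg.Agent.H9
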