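import Mathlib
import Cfsg.Agent.H4.Order

set_option autoImplicit false

namespace Cfsg.Agent.H9
open Module H4

section
variable {F : Type*} [Field F] {m : ℕ}

def oPi (F : Type*) [Field F] (m : ℕ) : (Unit ⊕ (Fin m ⊕ Fin m) → F) →ₗ[F] (Fin m ⊕ Fin m → F) :=
  LinearMap.funLeft F F Sum.inr

def oIo (F : Type*) [Field F] (m : ℕ) : (Fin m ⊕ Fin m → F) →ₗ[F] (Unit ⊕ (Fin m ⊕ Fin m) → F) where
  toFun u := Sum.elim 0 u
  map_add' u v := by ext (x | x) <;> simp
  map_smul' c v := by ext (x | x) <;> simp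

def oE (F : Type*) [Field F] (m : ℕ) : Unit ⊕ (Fin m ⊕ Fin m) → F := Sum.elim (fun _ => 1) 0

@[simp] theorem oPi_oIo (u : Fin m ⊕ Fin m → F) : oPi F m (oIo F m u) = u := rfl
@[simp] theorem oPi_oE : oPi F m (oE F m) = 0 := rfl
@[simp] theorem oIo_inl (u : Fin m ⊕ Fin m → F) : oIo F m u (.inl ()) = 0 := rfl
@[simp] theorem oE_inl : oE F m (.inl ()) = 1 := rfl

theorem o_decomp (x : Unit ⊕ (Fin m ⊕ Fin m) → F) : x = oIo F m (oPi F m x) + x (.inl ()) • oE F m := by
  ext (i | i) <;> simp [oIo, oPi, oE]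

theorem o_Q (x : Unit ⊕ (Fin m ⊕ Fin m) → F) :
    (oddF F m).Q x = x (.inl ()) ^ 2 + (plusF F m).Q (oPi F m x) := rfl

theorem plus_B_sp (h2 : (2 : F) = 0) (x y : Fin m ⊕ Fin m → F) : (plusF F m).B x y = (spF F m).B x y := by
  rw [plusF_B, polar_plus, spF_B, sympForm_eq]
  refine Finset.sum_congr rfl fun i _ => ?_
  linear_combination (x (.inl i) * y (.inr i)) * h2

theorem o_B (h2 : (2 : F) = 0) (x y : Unit ⊕ (Fin m ⊕ Fin m) → F) :
    (oddF F m).B x y = (spF F m).B (oPi F m x) (oPi F m y) := by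
  rw [← plus_B_sp h2, oddF_B, polar_odd, plusF_B, polar_plus, h2]
  simp [oPi]

theorem o_fix (h2 : (2 : F) = 0) (g : (oddF F m).iso) : g.1 (oE F m) = oE F m := by
  have h1 : oPi F m (g.1 (oE F m)) = 0 := by
    apply spF_nondeg m
    intro y
    rw [← oPi_oIo y, ← o_B h2, CForm.iso_B_left g.2, o_B h2]
    simp
  have h3 := CForm.iso_Q g.2 (oE F m)
  rw [o_Q, o_Q, h1] at h3
  simp only [oPi_oE, oE_inl, add_left_inj] at h3
  have h4 : g.1 (oE F m) (.inl ()) = 1 := by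
    have : (g.1 (oE F m) (.inl ()) - 1) ^ 2 = 0 := by
      linear_combination h3 + (1 - g.1 (oE F m) (.inl ())) * h2
    exact sub_eq_zero.mp (pow_eq_zero_iff two_ne_zero |>.mp this)
  rw [o_decomp (g.1 (oE F m)), h1, h4]; simp

theorem o_pi_apply (h2 : (2 : F) = 0) (g : (oddF F m).iso) (x) :
    oPi F m (g.1 (oIo F m (oPi F m x))) = oPi F m (g.1 x) := by
  conv_rhs => rw [o_decomp x]
  simp [o_fix h2]

noncomputable def oHom (h2 : (2 : F) = 0) : (oddF F m).iso →* (spF F m).iso where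
  toFun g := ⟨(spF_nondeg m).toEquiv (oPi F m ∘ₗ (g.1 : _ →ₗ[F] _) ∘ₗ oIo F m) (by
      intro x y
      simp only [LinearMap.comp_apply, LinearEquiv.coe_coe]
      rw [← o_B h2, CForm.iso_B g.2, o_B h2]; rfl), by
      rw [CForm.symp_mem_iso]
      intro x y
      simp only [CForm.Nondeg.toEquiv_apply, LinearMap.comp_apply, LinearEquiv.coe_coe]
      rw [← o_B h2, CForm.iso_B g.2, o_B h2]; rfl⟩
  map_one' := by ext v : 2; simp
  map_mul' g h := by ext v : 2; simp [o_pi_apply h2]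

theorem oHom_apply (h2 : (2 : F) = 0) (g : (oddF F m).iso) (u) :
    (oHom h2 g).1 u = oPi F m (g.1 (oIo F m u)) := rfl

theorem oHom_injective (h2 : (2 : F) = 0) : Function.Injective (oHom (m := m) h2) := by
  rw [injective_iff_map_eq_one]
  intro g hg
  have h1 : ∀ u, g.1 (oIo F m u) = oIo F m u := by
    intro u
    have a1 : oPi F m (g.1 (oIo F m u)) = u := by rw [← oHom_apply h2, hg]; rfl
    have a2 := CForm.iso_Q g.2 (oIo F m u)
    rw [o_Q, o_Q, a1] at a2
    simp at a2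
    rw [o_decomp (g.1 (oIo F m u)), a1, a2]; simp
  ext x : 2
  conv_lhs => rw [o_decomp x]
  rw [map_add, map_smul, h1, o_fix h2, ← o_decomp]; rfl

theorem oHom_surjective [Finite F] [CharP F 2] : Function.Surjective (oHom (m := m) (CharP.ofNat_eq_zero F 2)) := by
  have h2 : (2 : F) = 0 := CharP.ofNat_eq_zero F 2
  intro h
  let s : F ≃+* F := (frobeniusEquiv F 2).symm
  have hs : ∀ x, s x ^ 2 = x := fun x => (frobeniusEquiv F 2).apply_symm_apply x
  have hs' : ∀ x, s (x ^ 2) = x := fun x => (frobeniusEquiv F 2).symm_apply_apply x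
  let r : (Fin m ⊕ Fin m → F) →ₗ[F] F :=
    { toFun := fun u => s ((plusF F m).Q u - (plusF F m).Q (h.1 u))
      map_add' := fun u v => by
        rw [← map_add, map_add h.1, CForm.orth_Q_add, CForm.orth_Q_add, plus_B_sp h2, plus_B_sp h2,
          CForm.iso_B h.2]
        congr 1; ring
      map_smul' := fun c v => by
        rw [map_smul h.1, CForm.orth_Q_smul, CForm.orth_Q_smul, ← mul_sub, map_mul, hs']; rfl }
  let g : (Unit ⊕ (Fin m ⊕ Fin m) → F) →ₗ[F] (Unit ⊕ (Fin m ⊕ Fin m) → F) :=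
    oIo F m ∘ₗ (h.1 : _ →ₗ[F] _) ∘ₗ oPi F m +
      (LinearMap.proj (R := F) (φ := fun _ : Unit ⊕ (Fin m ⊕ Fin m) => F) (Sum.inl ()) + r ∘ₗ oPi F m).smulRight (oE F m)
  have hg : ∀ x, g x = oIo F m (h.1 (oPi F m x)) + (x (.inl ()) + r (oPi F m x)) • oE F m := fun _ => rfl
  have hg1 : ∀ x, oPi F m (g x) = h.1 (oPi F m x) := by intro x; rw [hg]; simp
  have hg2 : ∀ x, g x (.inl ()) = x (.inl ()) + r (oPi F m x) := by intro x; rw [hg]; simp
  have hinj : Function.Injective g := by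
    rw [injective_iff_map_eq_zero]
    intro x hx
    have a1 := hg1 x
    have a2 := hg2 x
    rw [hx] at a1 a2
    have a3 : oPi F m x = 0 := by simpa using a1.symm
    rw [a3] at a2
    rw [o_decomp x, a3]
    simp at a2
    simp [← a2]
  refine ⟨⟨LinearEquiv.ofInjectiveEndo g hinj, ?_⟩, ?_⟩
  · rw [CForm.orth_mem_iso]
    intro x
    show (oddF F m).Q (g x) = _
    rw [o_Q, o_Q, hg1, hg2]
    have : r (oPi F m x) ^ 2 = (plusF F m).Q (oPi F m x) - (plusF F m).Q (h.1 (oPi F m x)) := hs _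
    linear_combination this + (x (.inl ()) * r (oPi F m x)) * h2
  · ext u : 2
    rw [oHom_apply]
    exact hg1 _

end
end Cfsg.Agent.H9
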