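import Mathlib
import Cfsg.Agent.H4.Order

set_option autoImplicit false

namespace Cfsg.Agent.H9
open Module H4

section
variable {F : Type*} [Field F] {Ω : Type*} [Fintype Ω] [DecidableEq Ω]

def evL (F : Type*) [Field F] (a : Ω) : (Ω → F) →ₗ[F] F × F :=
  LinearMap.prod (∑ x : Ω, LinearMap.proj x) (LinearMap.proj a)

theorem mem_evL {a : Ω} {v : Ω → F} : v ∈ LinearMap.ker (evL F a) ↔ ∑ x, v x = 0 ∧ v a = 0 := by
  simp [evL, LinearMap.mem_ker]

theorem finrank_evL {a b : Ω} (hab : b ≠ a) : finrank F (LinearMap.ker (evL F a)) + 2 = Fintype.card Ω := by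
  have h := LinearMap.finrank_range_add_finrank_ker (evL F a)
  have hs : LinearMap.range (evL F a) = ⊤ := by
    rw [LinearMap.range_eq_top]
    rintro ⟨s, t⟩
    refine ⟨Pi.single a t + Pi.single b (s - t), ?_⟩
    simp [evL, Finset.sum_add_distrib, hab.symm]
  rw [hs] at h
  simp at h
  omega

theorem pair_mem (h2 : (2 : F) = 0) {a x y : Ω} (hx : x ≠ a) (hy : y ≠ a) :
    (Pi.single x 1 + Pi.single y 1 : Ω → F) ∈ LinearMap.ker (evL F a) := by
  rw [mem_evL]
  simp [Finset.sum_add_distrib, hx.symm, hy.symm]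
  linear_combination h2

def evAct (hc : (Fintype.card Ω : F) = 0) (a : Ω) (σ : Equiv.Perm Ω) :
    LinearMap.ker (evL F a) →ₗ[F] LinearMap.ker (evL F a) where
  toFun v := ⟨fun x => v.1 (σ⁻¹ x) - v.1 (σ⁻¹ a), by
    rw [mem_evL]
    refine ⟨?_, sub_self _⟩
    rw [Finset.sum_sub_distrib, Equiv.sum_comp σ⁻¹ v.1, (mem_evL.mp v.2).1]
    simp [hc]⟩
  map_add' v w := by ext x; simp; ring
  map_smul' c v := by ext x; simp; ring

theorem evAct_mul (hc : (Fintype.card Ω : F) = 0) (a : Ω) (σ τ : Equiv.Perm Ω) (v) :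
    evAct hc a (σ * τ) v = evAct hc a σ (evAct hc a τ v) := by
  ext x; simp [evAct]

theorem evAct_one (hc : (Fintype.card Ω : F) = 0) (a : Ω) (v) : evAct hc a 1 v = v := by
  ext x; simp [evAct, (mem_evL.mp v.2).2]

def evHom (hc : (Fintype.card Ω : F) = 0) (a : Ω) :
    Equiv.Perm Ω →* (LinearMap.ker (evL F a) ≃ₗ[F] LinearMap.ker (evL F a)) where
  toFun σ := LinearEquiv.ofLinear (evAct hc a σ) (evAct hc a σ⁻¹)
    (by ext v : 1; simp [← evAct_mul, evAct_one]) (by ext v : 1; simp [← evAct_mul, evAct_one])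
  map_one' := by ext v : 1; simp [evAct_one]
  map_mul' σ τ := by ext v : 1; simp [evAct_mul]

theorem evHom_apply (hc : (Fintype.card Ω : F) = 0) (a : Ω) (σ : Equiv.Perm Ω) (v) (x : Ω) :
    (evHom hc a σ v).1 x = v.1 (σ⁻¹ x) - v.1 (σ⁻¹ a) := rfl

def evForm (hF : ∀ x : F, x * x = x) (h2 : (2 : F) = 0) (a : Ω) : CForm (FType.symp F) (LinearMap.ker (evL F a)) :=
  CForm.mkAlt (fun v w => ∑ x, v.1 x * w.1 x)
    (fun x y z => by simp [add_mul, Finset.sum_add_distrib])
    (fun c x y => by simp [Finset.mul_sum, mul_assoc])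
    (fun v w => by
      have : ∑ x, w.1 x * v.1 x = ∑ x, v.1 x * w.1 x := Finset.sum_congr rfl fun _ _ => mul_comm _ _
      rw [this]
      linear_combination (∑ x, v.1 x * w.1 x) * h2)
    (fun v => by simp only [hF]; exact (mem_evL.mp v.2).1)

theorem evForm_nondeg (hF : ∀ x : F, x * x = x) (h2 : (2 : F) = 0) (hc : (Fintype.card Ω : F) = 0) (a : Ω) :
    (evForm hF h2 a).Nondeg := by
  intro v hv
  obtain ⟨hs, ha⟩ := mem_evL.mp v.2
  have h1 : ∀ x y, x ≠ a → y ≠ a → v.1 x = v.1 y := by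
    intro x y hx hy
    have := hv ⟨_, pair_mem h2 hx hy⟩
    simp [evForm, mul_add, Finset.sum_add_distrib, Pi.single_apply] at this
    linear_combination this - v.1 y * h2
  ext x
  by_cases hx : x = a
  · rw [hx]; exact ha
  · have e1 : ∑ y, (v.1 x - v.1 y) = v.1 x := by
      rw [Finset.sum_eq_single a]
      · rw [ha, sub_zero]
      · intro y _ hy; rw [h1 x y hx hy, sub_self]
      · simp
    rw [Finset.sum_sub_distrib, hs] at e1
    simp [hc] at e1
    exact e1.symm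

theorem evHom_mem (hF : ∀ x : F, x * x = x) (h2 : (2 : F) = 0) (hc : (Fintype.card Ω : F) = 0) (a : Ω)
    (σ : Equiv.Perm Ω) : evHom hc a σ ∈ (evForm hF h2 a).iso := by
  rw [CForm.symp_mem_iso]
  intro v w
  simp only [evForm, CForm.mkAlt_B, evHom_apply]
  rw [Equiv.sum_comp σ⁻¹ (fun x => (v.1 x - v.1 (σ⁻¹ a)) * (w.1 x - w.1 (σ⁻¹ a)))]
  simp only [sub_mul, mul_sub, Finset.sum_sub_distrib, ← Finset.sum_mul, ← Finset.mul_sum,
    (mem_evL.mp v.2).1, (mem_evL.mp w.2).1]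
  simp [hc]

theorem exists_ne4 (h5 : 5 ≤ Fintype.card Ω) (a b c d : Ω) : ∃ z, z ≠ a ∧ z ≠ b ∧ z ≠ c ∧ z ≠ d := by
  by_contra hcon
  push Not at hcon
  have : (Finset.univ : Finset Ω) ⊆ {a, b, c, d} := by
    intro z _
    by_cases h1 : z = a
    · simp [h1]
    by_cases h2 : z = b
    · simp [h2]
    by_cases h3 : z = c
    · simp [h3]
    simp [hcon z h1 h2 h3]
  have h1 := Finset.card_le_card this
  have h2 : ({a, b, c, d} : Finset Ω).card ≤ 4 := Finset.card_le_four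
  rw [Finset.card_univ] at h1
  omega

theorem evHom_injective (h2 : (2 : F) = 0) (hc : (Fintype.card Ω : F) = 0) (h5 : 5 ≤ Fintype.card Ω) (a : Ω) :
    Function.Injective (evHom hc a) := by
  rw [injective_iff_map_eq_one]
  intro σ hσ
  have key : ∀ x y z, y ≠ a → z ≠ a → (Pi.single y 1 + Pi.single z 1 : Ω → F) (σ⁻¹ x) -
      (Pi.single y 1 + Pi.single z 1 : Ω → F) (σ⁻¹ a) = (Pi.single y 1 + Pi.single z 1 : Ω → F) x := by
    intro x y z hy hz
    rw [← evHom_apply hc a σ ⟨_, pair_mem h2 hy hz⟩, hσ]; rfl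
  have h1 : ∀ p, p ≠ a → σ⁻¹ p ≠ p → σ⁻¹ a = p := by
    intro p hp hp'
    by_contra hne
    obtain ⟨z, z1, z2, z3, z4⟩ := exists_ne4 h5 a p (σ⁻¹ p) (σ⁻¹ a)
    have := key p p z hp z1
    simp only [Pi.add_apply, Pi.single_eq_of_ne hp', Pi.single_eq_of_ne hne, Pi.single_eq_of_ne z2.symm,
      Pi.single_eq_of_ne z3.symm, Pi.single_eq_of_ne z4.symm, Pi.single_eq_same] at this
    simp at this
  have h3 : σ⁻¹ a = a := by
    by_contra hne
    obtain ⟨z, z1, z2, -, -⟩ := exists_ne4 h5 a (σ⁻¹ a) a a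
    have hz : σ⁻¹ z = z := by
      by_contra h; exact z2 (h1 z z1 h).symm
    have := key z (σ⁻¹ a) z hne z1
    rw [hz] at this
    simp only [Pi.add_apply, Pi.single_eq_of_ne z2, Pi.single_eq_of_ne z2.symm, Pi.single_eq_same] at this
    simp at this
  rw [← inv_eq_one]
  ext p
  by_cases hp : p = a
  · rw [hp]; exact h3
  · by_contra h
    exact hp ((h1 p hp h).symm.trans h3)

theorem perm_embed_sp (hF : ∀ x : F, x * x = x) (m : ℕ) (hm : 2 ≤ m) (hΩ : Fintype.card Ω = 2 * m + 2) :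
    ∃ f : Equiv.Perm Ω →* Matrix.symplecticGroup (Fin m) F, Function.Injective f := by
  have h2 : (2 : F) = 0 := by linear_combination hF (-1) + (1 : F) * hF 1
  have hc : (Fintype.card Ω : F) = 0 := by
    rw [hΩ]; push_cast; rw [h2]; ring
  haveI : Nontrivial Ω := Fintype.one_lt_card_iff_nontrivial.mp (by omega)
  obtain ⟨b, a, hab⟩ := exists_pair_ne Ω
  have hd := finrank_evL (F := F) hab
  have hi := (evForm_nondeg hF h2 hc a).symp_isom (spF_nondeg (F := F) m) (by simp; omega)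
  obtain ⟨e⟩ := hi.nonempty_iso
  refine ⟨((spEquiv F m).symm.toMonoidHom.comp e.toMonoidHom).comp
    ((evHom hc a).codRestrict _ (evHom_mem hF h2 hc a)), ?_⟩
  intro σ τ h
  apply evHom_injective h2 hc (by omega) a
  exact congrArg Subtype.val (e.injective ((spEquiv F m).symm.injective h))

end
end Cfsg.Agent.H9
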