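import Mathlib
import Cfsg.Agent.H4.Basis
import Cfsg.Agent.H9.SpS

set_option autoImplicit false

namespace Cfsg.Agent.H9.QF
open Module H4

def chi (x : ZMod 2) : ℤ := if x = 0 then 1 else -1

theorem chi_add (x y : ZMod 2) : chi (x + y) = chi x * chi y := by revert x y; decide

theorem chi_sum {ι : Type*} (s : Finset ι) (a : ι → ZMod 2) : chi (∑ i ∈ s, a i) = ∏ i ∈ s, chi (a i) := by
  classical
  induction s using Finset.induction_on with
  | empty => rfl
  | insert i s hi ih => rw [Finset.sum_insert hi, Finset.prod_insert hi, chi_add, ih]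

theorem sg_plus (m : ℕ) : ∑ v : Fin m ⊕ Fin m → ZMod 2, chi (quadFormPlus m (ZMod 2) v) = 2 ^ m := by
  let e : (Fin m → ZMod 2 × ZMod 2) ≃ (Fin m ⊕ Fin m → ZMod 2) :=
    (Equiv.arrowProdEquivProdArrow _ _ _).trans (Equiv.sumArrowEquivProdArrow _ _ _).symm
  rw [← Equiv.sum_comp e]
  have h1 : ∀ x, chi (quadFormPlus m (ZMod 2) (e x)) = ∏ i, chi ((x i).1 * (x i).2) := fun x => by
    rw [← chi_sum]; rfl
  simp only [h1]
  rw [← Fintype.piFinset_univ, ← Finset.prod_univ_sum (fun _ => Finset.univ) (fun _ (x : ZMod 2 × ZMod 2) => chi (x.1 * x.2))]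
  have : ∑ x : ZMod 2 × ZMod 2, chi (x.1 * x.2) = 2 := by decide
  simp [this]

theorem sg_minus (m : ℕ) :
    ∑ v : (Fin m ⊕ Fin m) ⊕ Fin 2 → ZMod 2, chi (quadFormMinus m (ZMod 2) 1 1 v) = - 2 ^ (m + 1) := by
  rw [← Equiv.sum_comp (Equiv.sumArrowEquivProdArrow _ _ _).symm, Fintype.sum_prod_type]
  have h1 : ∀ (x : Fin m ⊕ Fin m → ZMod 2) (y : Fin 2 → ZMod 2),
      chi (quadFormMinus m (ZMod 2) 1 1 ((Equiv.sumArrowEquivProdArrow _ _ _).symm (x, y))) =
      chi (quadFormPlus m (ZMod 2) x) * chi (y 0 ^ 2 + 1 * y 0 * y 1 + 1 * y 1 ^ 2) := fun x y => by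
    rw [← chi_add]; rfl
  simp only [h1]
  rw [← Finset.sum_mul_sum, sg_plus]
  have : ∑ y : Fin 2 → ZMod 2, chi (y 0 ^ 2 + 1 * y 0 * y 1 + 1 * y 1 ^ 2) = -2 := by decide
  rw [this]; ring

theorem aniso (z₁ z₂ : ZMod 2) : z₁ ^ 2 + 1 * z₁ * z₂ + 1 * z₂ ^ 2 = 0 → z₁ = 0 ∧ z₂ = 0 := by
  revert z₁ z₂; decide

theorem type_of {V : Type*} [AddCommGroup V] [Module (ZMod 2) V] [Fintype V] [FiniteDimensional (ZMod 2) V]
    {f : CForm (FType.orth (ZMod 2)) V} (hf : f.Nondeg) {m : ℕ} (hm : finrank (ZMod 2) V = 2 * m + 2) :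
    (f.Isom (plusF (ZMod 2) (m + 1)) ∧ ∑ v, chi (f.Q v) = 2 ^ (m + 1)) ∨
    (f.Isom (minusF m 1 1) ∧ ∑ v, chi (f.Q v) = - 2 ^ (m + 1)) := by
  by_cases hw : f.wi = m + 1
  · have h := hf.isom_plusF (m := m + 1) (by omega) hw
    refine .inl ⟨h, ?_⟩
    obtain ⟨e, he⟩ := h
    rw [← sg_plus, ← Equiv.sum_comp e.toEquiv]
    exact Finset.sum_congr rfl fun v _ => congrArg chi (he.2 v).symm
  · have h := hf.isom_minusF hm hw aniso
    refine .inr ⟨h, ?_⟩
    obtain ⟨e, he⟩ := h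
    rw [← sg_minus, ← Equiv.sum_comp e.toEquiv]
    exact Finset.sum_congr rfl fun v _ => congrArg chi (he.2 v).symm

section
variable {V : Type*} [AddCommGroup V] [Module (ZMod 2) V]

theorem z01 (a : ZMod 2) : a = 0 ∨ a = 1 := by revert a; decide

/-- A quadratic form over the field of two elements from a function with given polar map. -/
def mkQ {T : FType (ZMod 2)} (f : CForm T V) (q : V → ZMod 2) (hq : ∀ u v, q (u + v) = q u + q v + f.B u v) :
    CForm (FType.orth (ZMod 2)) V :=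
  CForm.mkQuad q
    (fun a x => by
      rcases z01 a with rfl | rfl
      · have := hq 0 0
        simp only [add_zero, map_zero] at this
        simp only [zero_smul]
        linear_combination (-1 : ZMod 2) * this
      · simp)
    (fun x y z => by
      simp only [QuadraticMap.polar, hq, f.B_add_left]; ring)
    (fun a x y => by
      simp only [QuadraticMap.polar, hq, f.B_smul_left]; ring)

theorem mkQ_Q {T : FType (ZMod 2)} (f : CForm T V) (q hq) (v : V) : (mkQ f q hq).Q v = q v := rfl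

theorem mkQ_B {T : FType (ZMod 2)} (f : CForm T V) (q hq) (u v : V) : (mkQ f q hq).B u v = f.B u v := by
  simp only [mkQ, CForm.mkQuad_B, QuadraticMap.polar, hq]; ring

theorem mkQ_nondeg {T : FType (ZMod 2)} {f : CForm T V} (hf : f.Nondeg) (q hq) : (mkQ f q hq).Nondeg :=
  fun x hx => hf x fun y => by rw [← mkQ_B f q hq]; exact hx y

theorem two_eq : (2 : ZMod 2) = 0 := rfl

theorem shift_iff [Fintype V] [FiniteDimensional (ZMod 2) V] {f : CForm (FType.orth (ZMod 2)) V} (hf : f.Nondeg)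
    {m : ℕ} (hm : finrank (ZMod 2) V = 2 * m + 2) (w : V) :
    (∃ g : V ≃ₗ[ZMod 2] V, ∀ v, f.Q v + f.B v w = f.Q (g v)) ↔ f.Q w = 0 := by
  constructor
  · rintro ⟨g, hg⟩
    have h1 : ∑ v, chi (f.Q v + f.B v w) = ∑ v, chi (f.Q v) := by
      simp only [hg]; exact Equiv.sum_comp g.toEquiv fun v => chi (f.Q v)
    have h2 : ∑ v, chi (f.Q v + f.B v w) = chi (f.Q w) * ∑ v, chi (f.Q v) := by
      rw [← Equiv.sum_comp (Equiv.addRight w) fun v => chi (f.Q v), Finset.mul_sum]
      refine Finset.sum_congr rfl fun v _ => ?_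
      rw [← chi_add, Equiv.coe_addRight, f.orth_Q_add]
      congr 1
      linear_combination (-f.Q w) * two_eq
    have h3 : ∑ v, chi (f.Q v) ≠ 0 := by
      have : (2 : ℤ) ^ (m + 1) ≠ 0 := by positivity
      rcases type_of hf hm with h | h <;> rw [h.2]
      exacts [this, neg_ne_zero.mpr this]
    rcases z01 (f.Q w) with h | h
    · exact h
    · rw [h2, h] at h1
      exact absurd (by have : chi 1 = -1 := rfl; rw [this] at h1; linarith) h3
  · intro hw
    have hww : f.B w w = 0 := f.B_self_of_Q hw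
    let t : V →ₗ[ZMod 2] V := LinearMap.id + (f.fn w).smulRight w
    have ht : ∀ v, t v = v + f.B v w • w := fun v => rfl
    have htt : ∀ v, t (t v) = v := fun v => by
      rw [ht, ht, f.B_add_left, f.B_smul_left, hww, mul_zero, add_zero, add_assoc, ← add_smul, ← two_mul, two_eq,
        zero_mul, zero_smul, add_zero]
    refine ⟨LinearEquiv.ofInvolutive t htt, fun v => ?_⟩
    show _ = f.Q (t v)
    rw [ht, f.orth_Q_add, f.orth_Q_smul, hw, f.B_smul_right]
    rcases z01 (f.B v w) with h | h <;> simp [h]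

end

section
variable {Ω : Type*} [Fintype Ω] [DecidableEq Ω]

def ph (x : ZMod 2) : GaussianInt := if x = 0 then 1 else ⟨0, 1⟩

def psi (v : Ω → ZMod 2) : GaussianInt := ∏ x, ph (v x)

theorem psi_add (u v : Ω → ZMod 2) : psi (u + v) = psi u * psi v * (chi (∑ x, u x * v x) : ℤ) := by
  have : ∀ a b : ZMod 2, ph (a + b) = ph a * ph b * (chi (a * b) : ℤ) := by decide
  simp only [psi, Pi.add_apply, this, Finset.prod_mul_distrib, chi_sum, Int.cast_prod]

theorem psi_sq (v : Ω → ZMod 2) : psi v * psi v = (chi (∑ x, v x) : ℤ) := by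
  have : ∀ a : ZMod 2, ph a * ph a = (chi a : ℤ) := by decide
  simp only [psi, ← Finset.prod_mul_distrib, this, chi_sum, Int.cast_prod]

def qq (v : Ω → ZMod 2) : ZMod 2 := if psi v = 1 then 0 else 1

theorem chi_qq {v : Ω → ZMod 2} (hv : ∑ x, v x = 0) : ((chi (qq v) : ℤ) : GaussianInt) = psi v := by
  have h := psi_sq v
  rw [hv] at h
  have h' : psi v * psi v = 1 := h
  unfold qq
  split_ifs with h1
  · rw [h1]; rfl
  · rcases mul_self_eq_one_iff.mp h' with h2 | h2
    · exact absurd h2 h1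
    · rw [h2]; rfl

theorem chi_inj {a b : ZMod 2} (h : ((chi a : ℤ) : GaussianInt) = (chi b : ℤ)) : a = b := by
  revert a b; decide

theorem qq_add {u v : Ω → ZMod 2} (hu : ∑ x, u x = 0) (hv : ∑ x, v x = 0) :
    qq (u + v) = qq u + qq v + ∑ x, u x * v x := by
  apply chi_inj
  rw [chi_add, chi_add, chi_qq (by simp [Finset.sum_add_distrib, hu, hv]), psi_add, ← chi_qq hu, ← chi_qq hv]
  push_cast; ring

theorem hF2 (x : ZMod 2) : x * x = x := by revert x; decide

def evQ (a : Ω) : CForm (FType.orth (ZMod 2)) (LinearMap.ker (evL (ZMod 2) a)) :=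
  mkQ (evForm hF2 two_eq a) (fun v => qq v.1) fun u v => qq_add (mem_evL.mp u.2).1 (mem_evL.mp v.2).1

theorem evQ_mem {k : ℕ} (hΩ : Fintype.card Ω = 4 * k) (hc : (Fintype.card Ω : ZMod 2) = 0) (a : Ω) (σ : Equiv.Perm Ω) :
    evHom hc a σ ∈ (evQ a).iso := by
  rw [CForm.orth_mem_iso]
  intro v
  have : psi (evHom hc a σ v).1 = psi v.1 := by
    have e : (evHom hc a σ v).1 = (fun x => v.1 (σ⁻¹ x)) + fun _ => v.1 (σ⁻¹ a) := by
      ext x; rw [evHom_apply, Pi.add_apply]; linear_combination (-v.1 (σ⁻¹ a)) * two_eq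
    have e1 : psi (fun x => v.1 (σ⁻¹ x)) = psi v.1 := Equiv.prod_comp σ⁻¹ fun x => ph (v.1 x)
    have e2 : psi (fun _ : Ω => v.1 (σ⁻¹ a)) = 1 := by
      have : ∀ c : ZMod 2, ph c ^ 4 = 1 := by decide
      simp only [psi, Finset.prod_const, Finset.card_univ, hΩ, pow_mul, this, one_pow]
    rw [e, psi_add, e1, e2, ← Finset.sum_mul, Equiv.sum_comp σ⁻¹ v.1, (mem_evL.mp v.2).1, zero_mul]
    simp [chi]
  show qq _ = qq _
  simp only [qq, this]

open Classical in
theorem evQ_sum {k : ℕ} (hΩ : Fintype.card Ω = 4 * k + 4) (a : Ω) :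
    ∑ v : LinearMap.ker (evL (ZMod 2) a), chi ((evQ a).Q v) = - 2 * (-4) ^ k := by
  apply (Int.cast_injective (α := GaussianInt))
  apply mul_left_cancel₀ (two_ne_zero (α := GaussianInt))
  let φ : Ω → ZMod 2 → GaussianInt := fun x t => if x = a then (if t = 0 then 1 else 0) else ph t
  have h1 : ∀ v : Ω → ZMod 2, (∏ x, φ x (v x)) + ∏ x, (φ x (v x) * (chi (v x) : ℤ)) =
      if v ∈ LinearMap.ker (evL (ZMod 2) a) then 2 * psi v else 0 := by
    intro v
    rw [Finset.prod_mul_distrib, ← Int.cast_prod, ← chi_sum]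
    simp only [mem_evL]
    by_cases ha : v a = 0
    · have : ∏ x, φ x (v x) = psi v := Finset.prod_congr rfl fun x _ => by
        by_cases hx : x = a
        · simp [φ, hx, ha, ph]
        · simp [φ, hx]
      rw [this]
      rcases z01 (∑ x, v x) with h | h
      · rw [h, if_pos ⟨rfl, ha⟩]; simp [chi]; ring
      · rw [h, if_neg (by simp)]; simp [chi]
    · have : ∏ x, φ x (v x) = 0 := Finset.prod_eq_zero (Finset.mem_univ a) (by simp [φ, ha])
      rw [this, if_neg fun h => ha h.2]; simp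
  have h2 : ∀ (ψ : Ω → ZMod 2 → GaussianInt) (c : GaussianInt), (∑ t, ψ a t = 1) → (∀ x ≠ a, ∑ t, ψ x t = c) →
      ∑ v : Ω → ZMod 2, ∏ x, ψ x (v x) = c ^ (4 * k + 3) := by
    intro ψ c h h'
    rw [← Fintype.piFinset_univ, ← Finset.prod_univ_sum (fun _ => Finset.univ) ψ,
      ← Finset.mul_prod_erase _ _ (Finset.mem_univ a), h, one_mul,
      Finset.prod_congr rfl fun x hx => h' x (Finset.ne_of_mem_erase hx), Finset.prod_const,
      Finset.card_erase_of_mem (Finset.mem_univ a), Finset.card_univ, hΩ]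
    rfl
  have h3 := Finset.sum_congr (rfl : (Finset.univ : Finset (Ω → ZMod 2)) = _) fun v _ => h1 v
  rw [Finset.sum_add_distrib, h2 φ ⟨1, 1⟩ (by simp [φ]) (fun x hx => by simp only [φ, if_neg hx]; decide),
    h2 (fun x t => φ x t * (chi t : ℤ)) ⟨1, -1⟩ (by simp only [φ, if_true]; decide)
      (fun x hx => by simp only [φ, if_neg hx]; decide), ← Finset.sum_filter,
    Finset.sum_subtype (p := fun v => v ∈ LinearMap.ker (evL (ZMod 2) a)) _ (by simp), ← Finset.mul_sum] at h3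
  push_cast
  rw [Finset.sum_congr rfl fun (v : LinearMap.ker (evL (ZMod 2) a)) _ =>
    show ((chi ((evQ a).Q v) : ℤ) : GaussianInt) = psi v.1 from chi_qq (mem_evL.mp v.2).1]
  rw [← h3, pow_add, pow_add, pow_mul, pow_mul]
  have e1 : (⟨1, 1⟩ : GaussianInt) ^ 4 = -4 := by decide
  have e2 : (⟨1, -1⟩ : GaussianInt) ^ 4 = -4 := by decide
  have e3 : (⟨1, 1⟩ : GaussianInt) ^ 3 + (⟨1, -1⟩ : GaussianInt) ^ 3 = -4 := by decide
  rw [e1, e2]
  linear_combination ((-4 : GaussianInt) ^ k) * e3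

end
end Cfsg.Agent.H9.QF
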