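import Mathlib
import Cfsg.Agent.H1.Frattini
import Cfsg.Prelude.Def_LocalEven

/-! The affine group `Qd(F)`. -/

namespace Cfsg.Agent.H9

open scoped MatrixGroups

variable {F : Type*} [Field F]

theorem mem_qf {M : Matrix.SpecialLinearGroup (Fin 3) F} : M ∈ qdOver F ↔ M.1 2 0 = 0 ∧ M.1 2 1 = 0 ∧ M.1 2 2 = 1 := by
  refine ⟨fun h => ?_, fun h => Subgroup.subset_closure h⟩
  induction h using Subgroup.closure_induction with
  | mem x hx => exact hx
  | one => simp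
  | mul x y _ _ hx hy => simp [Matrix.mul_apply, Fin.sum_univ_three, hx, hy]
  | inv x _ hx =>
    have hd := x.2
    rw [Matrix.det_fin_three, hx.1, hx.2.1, hx.2.2] at hd
    simp only [Matrix.SpecialLinearGroup.coe_inv, Matrix.adjugate_fin_three, hx.1, hx.2.1, hx.2.2]
    simp
    linear_combination hd

/-- The linear part of an element of `Qd(p)`. -/
def qfBlk0 (M : qdOver F) : SL(2, F) :=
  ⟨!![M.1.1 0 0, M.1.1 0 1; M.1.1 1 0, M.1.1 1 1], by
    have hx := mem_qf.1 M.2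
    have hd := M.1.2
    rw [Matrix.det_fin_three, hx.1, hx.2.1, hx.2.2] at hd
    rw [Matrix.det_fin_two_of]
    linear_combination hd⟩

theorem qfBlk0_val (M : qdOver F) :
    (qfBlk0 M).1 = !![M.1.1 0 0, M.1.1 0 1; M.1.1 1 0, M.1.1 1 1] := rfl

/-- The linear part as a homomorphism. -/
def qfBlk (F : Type*) [Field F] : qdOver F →* SL(2, F) :=
  MonoidHom.mk' qfBlk0 fun M N => by
    have hx := mem_qf.1 N.2
    ext i j
    fin_cases i <;> fin_cases j <;> simp [qfBlk0_val, Matrix.mul_apply, Fin.sum_univ_three, hx]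

theorem qfBlk_val (M : qdOver F) :
    (qfBlk F M).1 = !![M.1.1 0 0, M.1.1 0 1; M.1.1 1 0, M.1.1 1 1] := rfl

/-- The affine map with linear part `A` and translation part `(a, b)`. -/
def qfMk (A : SL(2, F)) (a b : F) : qdOver F :=
  ⟨⟨!![A.1 0 0, A.1 0 1, a; A.1 1 0, A.1 1 1, b; 0, 0, 1], by
    have := A.2
    rw [Matrix.det_fin_two] at this
    rw [Matrix.det_fin_three]
    simp
    linear_combination this⟩, mem_qf.2 (by simp)⟩

theorem qfMk_val (A : SL(2, F)) (a b : F) :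
    (qfMk A a b).1.1 = !![A.1 0 0, A.1 0 1, a; A.1 1 0, A.1 1 1, b; 0, 0, 1] := rfl

theorem qfBlk_mk (A : SL(2, F)) (a b : F) : qfBlk F (qfMk A a b) = A := by
  ext i j
  fin_cases i <;> fin_cases j <;> rfl

theorem exists_qfMk (M : qdOver F) : ∃ a b, M = qfMk (qfBlk F M) a b := by
  have hx := mem_qf.1 M.2
  refine ⟨M.1.1 0 2, M.1.1 1 2, ?_⟩
  ext i j
  fin_cases i <;> fin_cases j <;> simp [qfMk_val, qfBlk_val, hx]

theorem qfMk_mul (A B : SL(2, F)) (a b c d : F) : qfMk A a b * qfMk B c d =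
    qfMk (A * B) (A.1 0 0 * c + A.1 0 1 * d + a) (A.1 1 0 * c + A.1 1 1 * d + b) := by
  ext i j
  fin_cases i <;> fin_cases j <;>
    simp [qfMk_val, Matrix.mul_apply, Fin.sum_univ_three, Fin.sum_univ_two]

theorem qfMk_inj {A B : SL(2, F)} {a b c d : F} (h : qfMk A a b = qfMk B c d) :
    a = c ∧ b = d :=
  ⟨congrArg (fun M : qdOver F => M.1.1 0 2) h, congrArg (fun M : qdOver F => M.1.1 1 2) h⟩

theorem qfMk_one : qfMk (1 : SL(2, F)) 0 0 = 1 := by
  ext i j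
  fin_cases i <;> fin_cases j <;> simp [qfMk_val]

theorem qfMk_pow (a b : F) (n : ℕ) : qfMk 1 a b ^ n = qfMk 1 ((n : F) * a) ((n : F) * b) := by
  induction n with
  | zero => simp [qfMk_one]
  | succ n ih => rw [pow_succ, ih, qfMk_mul]; simp; congr 1 <;> ring

theorem mem_qf_ker {M : qdOver F} : M ∈ (qfBlk F).ker ↔ ∃ a b, M = qfMk 1 a b := by
  constructor
  · intro h
    obtain ⟨a, b, e⟩ := exists_qfMk M
    exact ⟨a, b, by rw [e, (MonoidHom.mem_ker.1 h)]⟩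
  · rintro ⟨a, b, rfl⟩; exact qfBlk_mk _ _ _

theorem qf_conj (M : qdOver F) (a b : F) : M * qfMk 1 a b * M⁻¹ =
    qfMk 1 ((qfBlk F M).1 0 0 * a + (qfBlk F M).1 0 1 * b)
      ((qfBlk F M).1 1 0 * a + (qfBlk F M).1 1 1 * b) := by
  obtain ⟨c, d, e⟩ := exists_qfMk M
  rw [mul_inv_eq_iff_eq_mul]
  generalize qfBlk F M = A at e ⊢
  subst e
  simp [qfMk_mul, add_comm]

theorem qfMk_inj' {A B : SL(2, F)} {a b c d : F} (h : qfMk A a b = qfMk B c d) : A = B := by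
  rw [← qfBlk_mk A a b, h, qfBlk_mk]

theorem qf_cen {M : qdOver F} (h : ∀ a b, M * qfMk 1 a b * M⁻¹ = qfMk 1 a b) :
    M ∈ (qfBlk F).ker := by
  have e1 := h 1 0
  have e2 := h 0 1
  rw [qf_conj] at e1 e2
  have k1 := qfMk_inj e1
  have k2 := qfMk_inj e2
  simp only [mul_one, mul_zero, add_zero, zero_add] at k1 k2
  rw [MonoidHom.mem_ker]
  ext i j
  fin_cases i <;> fin_cases j <;> simp [k1, k2]

theorem qf_trans {a b : F} (h : ¬ (a = 0 ∧ b = 0)) :
    ∃ M : qdOver F, M * qfMk 1 1 0 * M⁻¹ = qfMk 1 a b := by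
  by_cases ha : a = 0
  · have hb : b ≠ 0 := fun e => h ⟨ha, e⟩
    refine ⟨qfMk ⟨!![a, -b⁻¹; b, 0], by simp [Matrix.det_fin_two, hb]⟩ 0 0, ?_⟩
    rw [qf_conj]; simp only [mul_one, mul_zero, add_zero]; rfl
  · refine ⟨qfMk ⟨!![a, 0; b, a⁻¹], by simp [Matrix.det_fin_two, ha]⟩ 0 0, ?_⟩
    rw [qf_conj]; simp only [mul_one, mul_zero, add_zero]; rfl

theorem pCore_qf [Finite F] {p : ℕ} [Fact p.Prime] [CharP F p] :
    pCore p (qdOver F) = (qfBlk F).ker := by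
  have hT : IsPGroup p (qfBlk F).ker := fun ⟨M, hM⟩ => ⟨1, by
    obtain ⟨a, b, rfl⟩ := mem_qf_ker.1 hM
    apply Subtype.ext
    simp [qfMk_pow, qfMk_one]⟩
  refine le_antisymm ?_ (H1.le_pCore inferInstance hT)
  have hne : (qfBlk F).ker ≠ ⊥ := by
    intro h
    have : qfMk (1 : SL(2, F)) 1 0 ∈ (qfBlk F).ker := mem_qf_ker.2 ⟨1, 0, rfl⟩
    rw [h, Subgroup.mem_bot, ← qfMk_one] at this
    exact one_ne_zero (qfMk_inj this).1
  obtain ⟨⟨t, ht⟩, h1⟩ := Subgroup.ne_bot_iff_exists_ne_one.1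
    (H1.inf_centralizer_ne_bot_of_isPGroup hT (H1.isPGroup_pCore p _)
      Subgroup.le_normalizer_of_normal hne)
  obtain ⟨a, b, rfl⟩ := mem_qf_ker.1 ht.1
  have hN : (Subgroup.centralizer (pCore p (qdOver F) : Set (qdOver F))).Normal := inferInstance
  obtain ⟨M, hM⟩ := qf_trans (a := a) (b := b) (by
    rintro ⟨rfl, rfl⟩; exact h1 (Subtype.ext qfMk_one))
  have h2 : qfMk (1 : SL(2, F)) 1 0 ∈ Subgroup.centralizer (pCore p (qdOver F) : Set (qdOver F)) := by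
    have := hN.conj_mem' _ ht.2 M
    rw [← hM] at this
    simpa [mul_assoc] using this
  intro x hx
  refine qf_cen fun c d => ?_
  by_cases h : c = 0 ∧ d = 0
  · rw [h.1, h.2, qfMk_one]; simp
  obtain ⟨N, hN'⟩ := qf_trans h
  have := hN.conj_mem _ h2 N
  rw [hN'] at this
  rw [this x hx, mul_inv_cancel_right]

/-- the block embedding of `SL₂` -/
def qfIn (F : Type*) [Field F] : SL(2, F) →* qdOver F :=
  MonoidHom.mk' (fun A => qfMk A 0 0) fun A B => by rw [qfMk_mul]; simp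

theorem qfIn_apply (A : SL(2, F)) : qfIn F A = qfMk A 0 0 := rfl

/-- coordinates on the translations -/
def qfCo (V : Subgroup (qdOver F)) (hV : V = (qfBlk F).ker) : Additive V ≃+ (Fin 2 → F) where
  toFun v := ![v.toMul.1.1.1 0 2, v.toMul.1.1.1 1 2]
  invFun x := Additive.ofMul ⟨qfMk 1 (x 0) (x 1), hV ▸ mem_qf_ker.2 ⟨_, _, rfl⟩⟩
  left_inv := by
    rintro ⟨v, hv⟩
    obtain ⟨a, b, rfl⟩ := mem_qf_ker.1 (hV ▸ hv)
    rfl
  right_inv x := by
    ext i; fin_cases i <;> rfl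
  map_add' := by
    rintro ⟨v, hv⟩ ⟨w, hw⟩
    obtain ⟨a, b, rfl⟩ := mem_qf_ker.1 (hV ▸ hv)
    obtain ⟨c, d, rfl⟩ := mem_qf_ker.1 (hV ▸ hw)
    change ![(qfMk 1 a b * qfMk 1 c d).1.1 0 2, (qfMk 1 a b * qfMk 1 c d).1.1 1 2] =
      ![a, b] + ![c, d]
    rw [qfMk_mul]
    ext i; fin_cases i <;> simp [qfMk_val, add_comm]

end Cfsg.Agent.H9
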