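import Mathlib
import Cfsg.Agent.H4.Order

set_option autoImplicit false

namespace Cfsg.Agent.H9
open Module H4 Matrix
open scoped MatrixGroups

section
variable {F : Type*} [Field F] [Fintype F] {q : ℕ}

theorem exists_fixed_hom {K : Type*} [Field K] [Fintype K] (hF : Fintype.card F = q ^ 2)
    (hK : Fintype.card K = q) : ∃ ι : K →+* F, ∀ x, x ∈ ι.range ↔ frobq hF x = x := by
  classical
  let L : Subfield F := RingHom.eqLocusField (frobq hF) (RingHom.id F)
  have hL : Fintype.card L = q := by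
    rw [← Nat.card_eq_fintype_card, ← card_fixed_frobq hF]; rfl
  let e := FiniteField.ringEquivOfCardEq (hK.trans hL.symm)
  refine ⟨L.subtype.comp e.toRingHom, fun x => ⟨?_, fun h => ?_⟩⟩
  · rintro ⟨y, rfl⟩; exact (e y).2
  · exact ⟨e.symm ⟨x, h⟩, by simp⟩

def skF (hF : Fintype.card F = q ^ 2) (c : F) (hc : c + frobq hF c = 0) : CForm (unT hF) (Fin 2 → F) :=
  CForm.mkHerm _ _ (frobq_ne hF) (fun u v => c * (u 0 * frobq hF (v 1) - u 1 * frobq hF (v 0)))
    (fun x y z => by simp only [Pi.add_apply]; ring)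
    (fun a x y => by simp only [Pi.smul_apply, smul_eq_mul]; ring)
    (fun x y => by
      simp only [map_mul, map_sub, frobq_frobq]
      linear_combination (y 0 * frobq hF (x 1) - y 1 * frobq hF (x 0)) * hc)

theorem skF_B (hF : Fintype.card F = q ^ 2) (c : F) (hc : c + frobq hF c = 0) (u v : Fin 2 → F) :
    (skF hF c hc).B u v = c * (u 0 * frobq hF (v 1) - u 1 * frobq hF (v 0)) := rfl

theorem su2_equiv {K : Type*} [Field K] [Fintype K] (hF : Fintype.card F = q ^ 2)
    (hK : Fintype.card K = q) : Nonempty (SU 2 F q ≃* SL(2, K)) := by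
  obtain ⟨ι, hι⟩ := exists_fixed_hom hF hK
  obtain ⟨c, hc0, hc⟩ := exists_trace_zero (frobq_ne hF) (frobq_frobq hF)
  have hn : (skF hF c hc).Nondeg := by
    intro x hx
    have h0 := hx (Pi.single 1 1)
    have h1 := hx (Pi.single 0 1)
    rw [skF_B] at h0 h1
    simp only [Pi.single_eq_same, ne_eq, zero_ne_one, not_false_eq_true, Pi.single_eq_of_ne, map_one, map_zero,
      one_ne_zero, mul_one, mul_zero, sub_zero, zero_sub, mul_eq_zero, hc0, false_or, neg_eq_zero] at h0 h1
    ext i; fin_cases i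
    · exact h0
    · exact h1
  obtain ⟨e⟩ := ((unF_nondeg hF 2).unit_isom (frobq_ne hF) hn rfl).nonempty_siso
  have hfix : ∀ y : K, frobq hF (ι y) = ι y := fun y => (hι _).mp ⟨y, rfl⟩
  let φ : SL(2, K) →* Matrix (Fin 2) (Fin 2) F :=
    (ι.mapMatrix : Matrix (Fin 2) (Fin 2) K →+* Matrix (Fin 2) (Fin 2) F).toMonoidHom.comp
      SpecialLinearGroup.coeMonoidHom
  have hφ : ∀ (g : SL(2, K)) i j, φ g i j = ι (g i j) := fun _ _ _ => rfl
  have hdet : ∀ g : SL(2, K), (φ g).det = 1 := by
    intro g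
    show (ι.mapMatrix (g : Matrix (Fin 2) (Fin 2) K)).det = 1
    rw [← RingHom.map_det, g.2, map_one]
  refine ⟨((suEquiv hF 2).trans e).trans (matEquiv φ ?_ _ ?_ ?_).symm⟩
  · intro g h hgh
    ext i j
    apply ι.injective
    rw [← hφ, ← hφ, hgh]
  · intro g
    refine ⟨CForm.unit_mem_iso.2 fun u v => ?_, Units.ext ((det_matE _ g).trans (hdet g))⟩
    have := hdet g
    rw [det_fin_two] at this
    simp only [skF_B, matE_apply, mulVec, dotProduct, Fin.sum_univ_two, map_add, map_mul, hφ, hfix] at this ⊢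
    linear_combination c * (u 0 * frobq hF (v 1) - u 1 * frobq hF (v 0)) * this
  · intro g hg
    have hd : (g : Matrix (Fin 2) (Fin 2) F).det = 1 := by
      have := (Subgroup.mem_inf.1 hg).2
      rw [MonoidHom.mem_ker, det_glE] at this
      exact congrArg Units.val this
    have hB := CForm.unit_mem_iso.1 (Subgroup.mem_inf.1 hg).1
    have h00 := hB (Pi.single 0 1) (Pi.single 0 1)
    have h01 := hB (Pi.single 0 1) (Pi.single 1 1)
    have h10 := hB (Pi.single 1 1) (Pi.single 0 1)
    have h11 := hB (Pi.single 1 1) (Pi.single 1 1)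
    rw [skF_B, skF_B, mul_right_inj' hc0] at h00 h01 h10 h11
    simp only [glE_apply, mulVec_single_one, col_apply, Pi.single_eq_same, ne_eq, zero_ne_one,
      not_false_eq_true, Pi.single_eq_of_ne, map_one, map_zero, one_ne_zero] at h00 h01 h10 h11
    rw [det_fin_two] at hd
    have key : ∀ i j, (g : Matrix (Fin 2) (Fin 2) F) i j ∈ ι.range := by
      intro i j
      rw [hι]
      generalize (g : Matrix (Fin 2) (Fin 2) F) = M at *
      fin_cases i <;> fin_cases j
      · show frobq hF (M 0 0) = M 0 0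
        linear_combination (-frobq hF (M 0 0)) * hd - M 0 0 * h10 + M 0 1 * h00
      · show frobq hF (M 0 1) = M 0 1
        linear_combination (-frobq hF (M 0 1)) * hd - M 0 0 * h11 + M 0 1 * h01
      · show frobq hF (M 1 0) = M 1 0
        linear_combination (-frobq hF (M 1 0)) * hd + M 1 1 * h00 - M 1 0 * h10
      · show frobq hF (M 1 1) = M 1 1
        linear_combination (-frobq hF (M 1 1)) * hd + M 1 1 * h01 - M 1 0 * h11
    choose N hN using key
    have hN' : ι.mapMatrix (Matrix.of N) = (g : Matrix (Fin 2) (Fin 2) F) := by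
      ext i j; exact hN i j
    refine ⟨⟨Matrix.of N, ?_⟩, hN'⟩
    apply ι.injective
    rw [RingHom.map_det, hN', det_fin_two, hd, map_one]

end
end Cfsg.Agent.H9
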