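import Cfsg.Agent.H9.Tr1

/-! Line systems given by a family of point maps; the two planes of a Fischer space. -/

set_option autoImplicit false

namespace Cfsg.Agent.H9

open Subgroup Cfsg.Agent.H6 Cfsg.LineSystem Equiv

/-- the lines `{a, b, τ b a}` -/
def lines {Y : Type*} (τ : Y → Y → Y) : Set (Set Y) := {l | ∃ a b, τ b a ≠ a ∧ l = {a, b, τ b a}}

def tauA (b a : Fin 2 → ZMod 3) : Fin 2 → ZMod 3 := -a - b

theorem aff_eq : affinePlaneThree = lines tauA := by
  have k : ∀ v w x : Fin 2 → ZMod 3, (∃ c : ZMod 3, x = v + c • w) ↔ x = v ∨ x = v + w ∨ x = tauA (v + w) v := by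
    decide +kernel
  have k' : ∀ v w : Fin 2 → ZMod 3, w ≠ 0 ↔ tauA (v + w) v ≠ v := by decide +kernel
  ext l
  refine ⟨fun ⟨v, w, h, e⟩ => ⟨v, v + w, (k' v w).1 h, e.trans (Set.ext (k v w))⟩, fun ⟨a, b, h, e⟩ => ?_⟩
  obtain ⟨w, rfl⟩ : ∃ w, b = a + w := ⟨b - a, by ring⟩
  exact ⟨a, w, (k' a w).2 h, e.trans (Set.ext (k a w)).symm⟩

def sw2 (s : DualAffinePoint) : Perm (Fin 4) :=
  ⟨fun i => if i ∈ s.1 then ∑ j ∈ s.1, j - i else i, fun i => if i ∈ s.1 then ∑ j ∈ s.1, j - i else i,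
    by revert s; decide +kernel, by revert s; decide +kernel⟩

def tauD (b a : DualAffinePoint) : DualAffinePoint :=
  ⟨a.1.map (sw2 b).toEmbedding, by rw [Finset.card_map, a.2]⟩

theorem dual_eq : dualAffinePlaneTwo = lines tauD := by
  have k : ∀ i : Fin 4, ∃ a b, tauD b a ≠ a ∧ ∀ s : DualAffinePoint, i ∉ s.1 ↔ s = a ∨ s = b ∨ s = tauD b a := by
    decide +kernel
  have k' : ∀ a b, tauD b a ≠ a → ∃ i : Fin 4, ∀ s : DualAffinePoint, s = a ∨ s = b ∨ s = tauD b a ↔ i ∉ s.1 := by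
    decide +kernel
  ext l
  refine ⟨fun ⟨i, e⟩ => ?_, fun ⟨a, b, h, e⟩ => ?_⟩
  · obtain ⟨a, b, h, h'⟩ := k i
    exact ⟨a, b, h, e.trans (Set.ext h')⟩
  · obtain ⟨i, h'⟩ := k' a b h
    exact ⟨i, e.trans (Set.ext h')⟩

/-- the properties of the point maps of the two planes -/
structure Sym {Y : Type*} (τ : Y → Y → Y) : Prop where
  self : ∀ a, τ a a = a
  ne : ∀ a b, τ b a ≠ a → τ b a ≠ b ∧ τ a b = τ b a ∧ τ (τ b a) a = b ∧ τ (τ b a) b = a
  inv : ∀ a b, τ a (τ a b) = b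
  aut : ∀ x a b, τ x (τ b a) = τ (τ x b) (τ x a)

theorem sym3 : Sym tauA := ⟨by decide +kernel, by decide +kernel, by decide +kernel, by decide +kernel⟩

theorem sym2 : Sym tauD := ⟨by decide +kernel, by decide +kernel, by decide +kernel, by decide +kernel⟩

theorem Sym.third {Y : Type*} {τ : Y → Y → Y} (h : Sym τ) {x w z : Y} (h1 : z ≠ x) (h2 : z ≠ w) (h3 : x ≠ w)
    (hl : ({x, w, z} : Set Y) ∈ lines τ) : τ x w = z := by
  obtain ⟨a, b, n, e⟩ := hl
  obtain ⟨n1, n2, n3, n4⟩ := h.ne a b n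
  have i1 := h.inv a b
  have i2 := h.inv b a
  rcases e.le (.inl rfl) with rfl | rfl | rfl <;> rcases e.le (.inr (.inl rfl)) with rfl | rfl | rfl <;>
    rcases e.le (.inr (.inr rfl)) with rfl | rfl | rfl <;> first | contradiction | assumption | rfl | (rw [← n2]; exact i1)

theorem Sym.map {Y : Type*} {τ : Y → Y → Y} (h : Sym τ) (x : Y) {l : Set Y} (hl : l ∈ lines τ) :
    τ x '' l ∈ lines τ := by
  obtain ⟨a, b, n, rfl⟩ := hl
  refine ⟨τ x a, τ x b, fun c => n ?_, by simp only [Set.image_insert_eq, Set.image_singleton, h.aut x a b]⟩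
  rw [← h.inv x (τ b a), h.aut x a b, c, h.inv]

section

variable {X : Type*} {L : Set (Set X)}

theorem sub_span (S : Set X) : S ⊆ span L S := fun _ hx _ hT => hT.1 hx

theorem span_subspace (S : Set X) : IsSubspace L (span L S) :=
  fun l hl x hx y hy n a b _ hz T hT => hT.2 l hl x (hx T hT) y (hy T hT) n a b hz

theorem mem_restrict {S : Set X} {m : Set S} : m ∈ restrict L S ↔ Subtype.val '' m ∈ L := by
  refine ⟨?_, fun h => ⟨_, h, by simp, by ext; simp⟩⟩
  rintro ⟨l, h, hs, rfl⟩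
  rwa [show Subtype.val '' {x : S | (x : X) ∈ l} = l from (Subtype.image_preimage_coe S l).trans
    (Set.inter_eq_right.2 hs)]

theorem lineMap_eq (hL : IsPartialLinear L) (h3 : ∀ l ∈ L, l.ncard = 3) {x w z : X} (h1 : z ≠ x) (h2 : z ≠ w)
    (h4 : x ≠ w) (hl : ({x, w, z} : Set X) ∈ L) : lineMap L x w = z := by
  have h : ∃ z : X, z ≠ x ∧ z ≠ w ∧ x ≠ w ∧ ({x, w, z} : Set X) ∈ L := ⟨z, h1, h2, h4, hl⟩
  rw [lineMap, dif_pos h]
  obtain ⟨a, b, -, c⟩ := h.choose_spec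
  rcases (hL _ c _ hl x w h4 (.inl rfl) (.inr (.inl rfl)) (.inl rfl) (.inr (.inl rfl))).le (.inr (.inr rfl))
    with e | e | e
  exacts [absurd e a, absurd e b, e]

theorem lineMap_cases (L : Set (Set X)) (x w : X) : (lineMap L x w = w ∧
    ∀ z, z ≠ x → z ≠ w → x ≠ w → ({x, w, z} : Set X) ∉ L) ∨ (lineMap L x w ≠ x ∧ lineMap L x w ≠ w ∧ x ≠ w ∧
      ({x, w, lineMap L x w} : Set X) ∈ L) := by
  by_cases h : ∃ z : X, z ≠ x ∧ z ≠ w ∧ x ≠ w ∧ ({x, w, z} : Set X) ∈ L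
  · right; rw [lineMap, dif_pos h]; exact h.choose_spec
  · left; rw [lineMap, dif_neg h]; exact ⟨rfl, fun z a b c d => h ⟨z, a, b, c, d⟩⟩

theorem ncard3 {l : Set X} (h : l.ncard = 3) {x y : X} (hx : x ∈ l) (hy : y ∈ l) (n : x ≠ y) :
    ∃ z, z ≠ x ∧ z ≠ y ∧ l = {x, y, z} := by
  have f := Set.finite_of_ncard_pos (h.symm ▸ three_pos : 0 < l.ncard)
  obtain ⟨z, hz, nz⟩ := Set.exists_mem_notMem_of_ncard_lt_ncard (s := {x, y}) (t := l)
    (by rw [h, Set.ncard_pair n]; omega)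
  have a : z ≠ x := fun c => nz (.inl c)
  have b : z ≠ y := fun c => nz (.inr c)
  exact ⟨z, a, b, (Set.eq_of_subset_of_ncard_le (by rintro _ (rfl | rfl | rfl) <;> assumption)
    (h.trans (Set.ncard_eq_three.2 ⟨x, y, z, n, a.symm, b.symm, rfl⟩).symm).le f).symm⟩

theorem plane_map (hL : IsPartialLinear L) (h3 : ∀ l ∈ L, l.ncard = 3) {S : Set X} (hS : IsSubspace L S)
    {Y : Type*} {τ : Y → Y → Y} (h : Sym τ) (e : S ≃ Y) (he : IsIso (restrict L S) (lines τ) e) (x : S)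
    {l : Set X} (hl : l ∈ L) (lS : l ⊆ S) : lineMap L x '' l ∈ L := by
  have k : ∀ w : S, lineMap L x w = e.symm (τ (e x) (e w)) := fun w => by
    rcases lineMap_cases L x w with ⟨a, b⟩ | ⟨a, b, c, d⟩
    · rw [a]
      by_contra n
      have n' : τ (e x) (e w) ≠ e w := fun c => n (by rw [c, e.symm_apply_apply])
      have := mem_restrict.1 ((he _).2 (show e '' {w, x, e.symm (τ (e x) (e w))} ∈ lines τ from
        ⟨e w, e x, n', by simp [Set.image_insert_eq]⟩))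
      rw [Set.image_insert_eq, Set.image_insert_eq, Set.image_singleton, Set.insert_comm] at this
      refine b _ (fun c => (h.ne _ _ n').1 ?_) (Ne.symm n) (fun c => n' ?_) this
      · exact (e.symm_apply_eq.1 (Subtype.ext c))
      · rw [Subtype.ext c, h.self]
    · have m := hS _ d x x.2 w w.2 c (.inl rfl) (.inr (.inl rfl)) (.inr (.inr rfl))
      have := (he {x, w, ⟨_, m⟩}).1 (mem_restrict.2 (by simpa [Set.image_insert_eq] using d))
      rw [Set.image_insert_eq, Set.image_insert_eq, Set.image_singleton] at this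
      rw [h.third (e.injective.ne (Subtype.coe_ne_coe.1 a)) (e.injective.ne (Subtype.coe_ne_coe.1 b))
        (e.injective.ne (Subtype.coe_ne_coe.1 c)) this, e.symm_apply_apply]
  have := mem_restrict.1 ((he (e.symm '' (τ (e x) '' (e '' {y : S | (y : X) ∈ l})))).2 (by
    rw [e.image_symm_image]; exact h.map _ ((he _).1 ⟨l, hl, lS, rfl⟩)))
  convert this using 1
  simp only [Set.image_image, ← k]
  rw [← Set.image_image (lineMap L x) Subtype.val]
  exact congrArg _ ((Subtype.image_preimage_coe S l).trans (Set.inter_eq_right.2 lS)).symm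

end

end Cfsg.Agent.H9
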