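import Cfsg.Agent.H9.Tr1
import Cfsg.Agent.H4.Orth2

/-! Reflections of one norm class over the field with three elements. -/

set_option autoImplicit false

namespace Cfsg.Agent.H9

open Subgroup Cfsg.Agent.H6 Cfsg.Agent.H4 Module
open scoped commutatorElement

section
variable {V : Type*} [AddCommGroup V] [Module (ZMod 3) V] {f : CForm (FType.orth (ZMod 3)) V} {u v : V} {c : ZMod 3}

theorem z3_sq : ∀ t : ZMod 3, t ≠ 0 → t * t = 1 := by decide

theorem rfx_comm (h : f.B u v = 0) : Commute (f.rfx u) (f.rfx v) :=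
  comm_of_cj (by rw [CForm.rfx_conj (CForm.rfx_mem_iso u), CForm.rfx_fix (f.B_zero_symm h)])

theorem rfx_braid (hu : f.Q u ≠ 0) (huv : f.Q u = f.Q v) (h : f.B u v ≠ 0) :
    f.rfx u * f.rfx v * f.rfx u = f.rfx v * f.rfx u * f.rfx v := by
  have a := CForm.rfx_conj (f := f) (CForm.rfx_mem_iso u) v
  have b := CForm.rfx_conj (f := f) (CForm.rfx_mem_iso v) u
  rw [CForm.rfx_inv] at a b
  rw [a, b, CForm.rfx_apply, CForm.rfx_apply, ← huv, f.orth_symm u v]
  have := mul_ne_zero (inv_ne_zero hu) h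
  generalize (f.Q u)⁻¹ * f.B u v = t at this
  rw [← CForm.rfx_smul (neg_ne_zero.2 this), smul_sub, smul_smul,
    show -t * t = -1 by revert t; decide]
  congr 1; module

theorem rfx_three (hu : f.Q u ≠ 0) (huv : f.Q u = f.Q v) :
    (f.rfx u * f.rfx v) ^ 2 = 1 ∨ (f.rfx u * f.rfx v) ^ 3 = 1 := by
  by_cases h : f.B u v = 0
  · exact .inl (sq_of_commute (CForm.rfx_mul_self u) (CForm.rfx_mul_self v) (rfx_comm h))
  · right
    rw [show (f.rfx u * f.rfx v) ^ 3 = f.rfx u * f.rfx v * f.rfx u * (f.rfx v * f.rfx u * f.rfx v) by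
      rw [pow_three']; simp only [mul_assoc], rfx_braid hu huv h, mul_eq_one_iff_eq_inv]
    simp only [mul_inv_rev, CForm.rfx_inv, mul_assoc]

theorem rfx_ne_one (hu : f.Q u ≠ 0) : f.rfx u ≠ 1 := fun e => hu (by
  have := (CForm.rfx_eq_iff (x := u) hu).1 (by rw [e]; rfl)
  rw [f.orth_B_self] at this
  exact (mul_eq_zero.1 this).resolve_left (by decide))

theorem rfx_set (c : ZMod 3) : {g | ∃ v t, t ≠ 0 ∧ f.Q v = c * t ^ 2 ∧ g = f.rfx v} =
    {g | ∃ v, f.Q v = c ∧ g = f.rfx v} := Set.ext fun _ => exists_congr fun _ =>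
  ⟨fun ⟨t, a, b, d⟩ => ⟨by rw [b, pow_two, z3_sq t a, mul_one], d⟩,
    fun ⟨a, b⟩ => ⟨1, one_ne_zero, by simpa using a, b⟩⟩

end

variable {n : ℕ} (Q : QuadraticForm (ZMod 3) (Fin n → ZMod 3)) (c : ZMod 3)

/-- the reflection group as a group of linear maps -/
noncomputable def rfE : reflectionSubgroup Q c →* ((Fin n → ZMod 3) ≃ₗ[ZMod 3] (Fin n → ZMod 3)) :=
  (CForm.ofQuad Q).iso.subtype.comp ((isomEquiv (CForm.ofQuad Q)).toMonoidHom.comp (reflectionSubgroup Q c).subtype)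

abbrev rfD : Set (reflectionSubgroup Q c) := {g | (g : isometryGroup (ZMod 3) Q) ∈ reflectionsOfNorm Q c}

variable {Q c}

theorem rfE_inj : Function.Injective (rfE Q c) :=
  (subtype_injective _).comp ((isomEquiv (CForm.ofQuad Q)).injective.comp (subtype_injective _))

theorem mem_rfD {g : reflectionSubgroup Q c} : g ∈ rfD Q c ↔ ∃ v, Q v = c ∧ rfE Q c g = (CForm.ofQuad Q).rfx v :=
  exists_congr fun _ => and_congr_right' (eq_reflectionMatrix_iff (f := CForm.ofQuad Q))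

theorem mem_rfS {g : isometryGroup (ZMod 3) Q} : g ∈ reflectionSubgroup Q c ↔ (isomEquiv (CForm.ofQuad Q) g).1 ∈
    closure {g | ∃ v, (CForm.ofQuad Q).Q v = c ∧ g = (CForm.ofQuad Q).rfx v} :=
  mem_closure_equiv (isomEquiv (CForm.ofQuad Q)) (by rintro _ ⟨v, -, rfl⟩; exact CForm.rfx_mem_iso v)
    (fun _ => exists_congr fun _ => and_congr_right' (eq_reflectionMatrix_iff (f := CForm.ofQuad Q))) g

theorem rfE_range : (rfE Q c).range = closure {g | ∃ v, (CForm.ofQuad Q).Q v = c ∧ g = (CForm.ofQuad Q).rfx v} := by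
  refine le_antisymm (by rintro _ ⟨g, rfl⟩; exact mem_rfS.1 g.2) fun x hx => ?_
  obtain ⟨g, e⟩ := (isomEquiv (CForm.ofQuad Q)).surjective ⟨x, (closure_le _).2
    (by rintro _ ⟨v, -, rfl⟩; exact CForm.rfx_mem_iso v) hx⟩
  exact ⟨⟨g, mem_rfS.2 (by rwa [e])⟩, congrArg Subtype.val e⟩

variable (hn : 5 ≤ n) (hQ : (QuadraticMap.polarBilin Q).Nondegenerate) (hc : c ≠ 0)
include hn hQ hc

theorem E_le_rfE : (CForm.ofQuad Q).E ≤ (rfE Q c).range :=
  (CForm.ofQuad_nondeg hQ).orth_E_le_of_class (by decide) (.inl (by simpa using hn)) hc fun v t a b => by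
    rw [rfE_range, ← rfx_set]; exact subset_closure ⟨v, t, a, b, rfl⟩

theorem rf_index : (reflectionSubgroup Q c).index = 2 :=
  (index_eq_relIndex_of_equiv (isomEquiv (CForm.ofQuad Q)) fun _ => mem_rfS).trans (rfx_set (f := CForm.ofQuad Q) c ▸
    (CForm.ofQuad_nondeg hQ).orth_relIndex_class (by decide) (.inr (.inl (by simpa using hn))) hc)

theorem rf_class : IsThreeTranspositionClass (rfD Q c) := by
  have hf := CForm.ofQuad_nondeg hQ
  obtain ⟨u, hu⟩ := not_forall.1 (CForm.Nondeg.orth_not_aniso (f := CForm.ofQuad Q) (by simp; omega))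
  obtain ⟨u1, u0⟩ := _root_.not_imp.1 hu
  obtain ⟨w, w1, w2⟩ := hf.exists_pair u0 u1
  have q : ∀ a b : ZMod 3, (CForm.ofQuad Q).Q (a • u + b • w) = a * b := fun a b => by
    rw [CForm.orth_Q_add, CForm.orth_Q_smul, CForm.orth_Q_smul, u1, w1, CForm.B_smul_left, CForm.B_smul_right, w2]
    simp
  obtain ⟨d, hd⟩ : (CForm.ofQuad Q).rfx (c • u + (1 : ZMod 3) • w) ∈ (rfE Q c).range := by
    rw [rfE_range]; exact subset_closure ⟨_, by rw [q, mul_one], rfl⟩
  refine ⟨⟨fun g hg => ?_, fun g hg h hh => ?_⟩, ⟨d, mem_rfD.2 ⟨_, (q c 1).trans (mul_one c), hd⟩,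
    Set.ext fun g => ⟨fun hg => ?_, fun hg => ?_⟩⟩, closure_preimage_eq_top _⟩
  · obtain ⟨v, a, b⟩ := mem_rfD.1 hg
    rw [← orderOf_injective _ rfE_inj, b]
    exact orderOf_eq_prime (by rw [pow_two, CForm.rfx_mul_self]) (rfx_ne_one (a.trans_ne hc))
  · obtain ⟨v, a, b⟩ := mem_rfD.1 hg
    obtain ⟨v', a', b'⟩ := mem_rfD.1 hh
    rw [← map_eq_one_iff _ rfE_inj, ← map_eq_one_iff _ rfE_inj (x := _ ^ 3), map_pow, map_pow, map_mul, b, b']
    exact rfx_three (a.trans_ne hc) (a.trans a'.symm)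
  · obtain ⟨v, a, b⟩ := mem_rfD.1 hg
    obtain ⟨e, he, s, t, h⟩ := hf.exists_E_map_pair u1 w1 w2 v
    obtain ⟨e, rfl⟩ := E_le_rfE hn hQ hc he
    have h1 : s * t = c := by rw [← q, ← h, CForm.iso_Q (CForm.E_le_iso he)]; exact a
    have h2 : t ≠ 0 := fun e => hc (by rw [← h1, e, mul_zero])
    refine IsConj.symm (_root_.isConj_iff.2 ⟨e, rfE_inj ?_⟩)
    rw [map_mul, map_mul, map_inv, b, CForm.rfx_conj (CForm.E_le_iso he), h, hd, ← CForm.rfx_smul h2, smul_add,
      smul_smul, smul_smul, mul_comm t, h1, z3_sq t h2]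
  · obtain ⟨e, rfl⟩ := _root_.isConj_iff.1 hg
    have m : rfE Q c e ∈ (CForm.ofQuad Q).iso := (isomEquiv (CForm.ofQuad Q) e.1).2
    exact mem_rfD.2 ⟨_, (CForm.iso_Q m _).trans ((q c 1).trans (mul_one c)), by
      rw [map_mul, map_mul, map_inv, hd, CForm.rfx_conj m]⟩

theorem rf_qs : IsQuasisimple (commutator (reflectionSubgroup Q c)) := by
  have hf := CForm.ofQuad_nondeg hQ
  have h5 : 5 ≤ finrank (ZMod 3) (Fin n → ZMod 3) := by simpa using hn
  have p := hf.orth_E_perfect h5 (hf.orth_wi_two h5)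
  have : (commutator (reflectionSubgroup Q c)).map (rfE Q c) = (CForm.ofQuad Q).E := by
    rw [commutator_def, map_commutator, ← MonoidHom.range_eq_map]
    refine le_antisymm ?_ (p.trans (commutator_mono (E_le_rfE hn hQ hc) (E_le_rfE hn hQ hc)))
    have : (rfE Q c).range ≤ (CForm.ofQuad Q).iso := by rintro _ ⟨e, rfl⟩; exact (isomEquiv (CForm.ofQuad Q) e.1).2
    exact (commutator_mono this this).trans (hf.orth_commutator_eq_E' h5).le
  exact H8.qs_of_equiv ((equivMapOfInjective _ _ rfE_inj).trans (MulEquiv.subgroupCongr this)).symm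
    ⟨⟨(commutator_eq_top_iff _).2 p⟩, hf.orth_simple h5 (hf.orth_wi_two h5)⟩

end Cfsg.Agent.H9
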