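import Mathlib
import Cfsg.Agent.H4.Count
import Cfsg.Agent.H2.Count
import Cfsg.Agent.GS.Cj3

set_option autoImplicit false

namespace Cfsg.Agent.H9
open Module Matrix

section
variable {F : Type*} [Field F] {n : ℕ}

theorem card_tv_pairs [Fintype F] :
    Nat.card {p : (Fin (n + 1) → F) × (Fin (n + 1) → F) // p.1 ≠ 0 ∧ p.2 ≠ 0 ∧ p.2 ⬝ᵥ p.1 = 0} =
      (Fintype.card F ^ (n + 1) - 1) * (Fintype.card F ^ n - 1) := by
  classical
  have e : {p : (Fin (n + 1) → F) × (Fin (n + 1) → F) // p.1 ≠ 0 ∧ p.2 ≠ 0 ∧ p.2 ⬝ᵥ p.1 = 0} ≃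
      Σ u : {u : Fin (n + 1) → F // u ≠ 0 ∧ True}, {w : Fin (n + 1) → F // w ≠ 0 ∧ w ⬝ᵥ u.1 = 0} :=
    { toFun := fun p => ⟨⟨p.1.1, p.2.1, trivial⟩, ⟨p.1.2, p.2.2⟩⟩
      invFun := fun p => ⟨(p.1.1, p.2.1), p.1.2.1, p.2.2⟩
      left_inv := fun _ => rfl
      right_inv := fun _ => rfl }
  have h1 : ∀ u : {u : Fin (n + 1) → F // u ≠ 0 ∧ True},
      Nat.card {w : Fin (n + 1) → F // w ≠ 0 ∧ w ⬝ᵥ u.1 = 0} = Fintype.card F ^ n - 1 := by
    intro u
    have a1 := H4.card_ne_zero_and (fun w : Fin (n + 1) → F => w ⬝ᵥ u.1 = 0) (by simp)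
    let φ : Module.Dual F (Fin (n + 1) → F) := (dotProductBilin F F).flip u.1
    have hφ : φ ≠ 0 := by
      intro h
      apply u.2.1
      ext i
      have := LinearMap.congr_fun h (Pi.single i 1)
      simpa [φ] using this
    have a2 := Module.Dual.finrank_ker_add_one_of_ne_zero hφ
    have a3 : Nat.card {w : Fin (n + 1) → F // w ⬝ᵥ u.1 = 0} = Nat.card (LinearMap.ker φ) := rfl
    rw [a3, Module.natCard_eq_pow_finrank (K := F) (V := LinearMap.ker φ), Nat.card_eq_fintype_card (α := F)] at a1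
    simp only [finrank_fintype_fun_eq_card, Fintype.card_fin, add_left_inj] at a2
    rw [a2] at a1
    omega
  have h2 := H4.card_ne_zero_and (fun _ : Fin (n + 1) → F => True) trivial
  have h3 : Nat.card {x : Fin (n + 1) → F // True} = Fintype.card F ^ (n + 1) := by simp
  rw [Nat.card_congr e, Nat.card_sigma, Finset.sum_congr rfl fun u _ => h1 u, Finset.sum_const, Finset.card_univ,
    ← Nat.card_eq_fintype_card, smul_eq_mul]
  congr 1
  omega

theorem vecMulVec_eq {ι : Type*} {u w u' w' : ι → F} (hu : u ≠ 0) (hw : w ≠ 0)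
    (h : vecMulVec u w = vecMulVec u' w') : ∃ c : Fˣ, u = (c : F) • u' ∧ w = ((c⁻¹ : Fˣ) : F) • w' := by
  obtain ⟨i, hi⟩ := Function.ne_iff.mp hu
  obtain ⟨j, hj⟩ := Function.ne_iff.mp hw
  have e : ∀ a b, u a * w b = u' a * w' b := fun a b => congrFun (congrFun h a) b
  simp only [Pi.zero_apply] at hi hj
  have h1 : w' j ≠ 0 := fun h0 => mul_ne_zero hi hj (by rw [e, h0, mul_zero])
  have h2 : u' i ≠ 0 := fun h0 => mul_ne_zero hi hj (by rw [e, h0, zero_mul])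
  refine ⟨Units.mk0 (w' j / w j) (div_ne_zero h1 hj), ?_, ?_⟩
  · ext a
    simp only [Units.val_mk0, Pi.smul_apply, smul_eq_mul]
    field_simp
    linear_combination e a j
  · ext b
    simp only [Units.val_inv_eq_inv_val, Units.val_mk0, Pi.smul_apply, smul_eq_mul]
    field_simp
    apply mul_left_cancel₀ h2
    apply mul_left_cancel₀ hi
    linear_combination (u i * w' j) * 0 - (u i * w b) * e i j + (u i * w j) * e i b

theorem card_tv_class [Fintype F] (t : GL (Fin (n + 2)) F) (ht : Cfsg.IsTransvection (t : Matrix (Fin (n + 2)) (Fin (n + 2)) F)) :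
    (Fintype.card F - 1) * Nat.card {g : GL (Fin (n + 2)) F // IsConj t g} =
      (Fintype.card F ^ (n + 2) - 1) * (Fintype.card F ^ (n + 1) - 1) := by
  classical
  have a : (0 : Fin (n + 2)) ≠ 1 := Fin.zero_ne_one
  have h0 := GS.IsTransvection.isConj ht a
  have h1 : ∀ g : {g : GL (Fin (n + 2)) F // IsConj t g}, ∃ u w : Fin (n + 2) → F, (u ≠ 0 ∧ w ≠ 0 ∧ w ⬝ᵥ u = 0) ∧
      (g.1 : Matrix (Fin (n + 2)) (Fin (n + 2)) F) = 1 + vecMulVec u w := by
    rintro ⟨g, hg⟩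
    obtain ⟨c, hc⟩ := h0.symm.trans ((Units.coeHom _).map_isConj hg)
    have hc' : (g : Matrix (Fin (n + 2)) (Fin (n + 2)) F) = c.1 * (1 + single 0 1 (1 : F)) * (c⁻¹).1 := by
      rw [hc.eq]; simp
    have e1 : single (0 : Fin (n + 2)) (1 : Fin (n + 2)) (1 : F) = vecMulVec (Pi.single 0 1) (Pi.single 1 1) := by
      rw [single_eq_single_vecMulVec_single]
    refine ⟨c.1 *ᵥ Pi.single 0 1, Pi.single 1 1 ᵥ* (c⁻¹).1, ⟨?_, ?_, ?_⟩, ?_⟩
    · intro h
      have := congrArg ((c⁻¹).1 *ᵥ ·) h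
      simp only [mulVec_mulVec, Units.inv_mul, one_mulVec, mulVec_zero] at this
      simpa using congrFun this 0
    · intro h
      have := congrArg (· ᵥ* c.1) h
      simp only [vecMul_vecMul, Units.inv_mul, vecMul_one, zero_vecMul] at this
      simpa using congrFun this 1
    · rw [dotProduct_mulVec, vecMul_vecMul, Units.inv_mul, vecMul_one]
      simp
    · show (g : Matrix (Fin (n + 2)) (Fin (n + 2)) F) = _
      rw [hc', mul_add, add_mul, mul_one, Units.mul_inv, e1, mul_vecMulVec, vecMulVec_mul]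
  choose u w huw hg using h1
  rw [← card_tv_pairs (n := n + 1), ← Fintype.card_units, ← Nat.card_eq_fintype_card, ← Nat.card_prod]
  have hs : ∀ (c : Fˣ) (x y : Fin (n + 2) → F), vecMulVec ((c : F) • x) (((c⁻¹ : Fˣ) : F) • y) = vecMulVec x y := by
    intro c x y
    ext i j
    simp only [vecMulVec_apply, Pi.smul_apply, smul_eq_mul, Units.val_inv_eq_inv_val]
    field_simp
  refine Nat.card_congr (Equiv.ofBijective (fun p => ⟨((p.1 : F) • u p.2, ((p.1⁻¹ : Fˣ) : F) • w p.2),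
    smul_ne_zero p.1.ne_zero (huw p.2).1, smul_ne_zero p.1⁻¹.ne_zero (huw p.2).2.1, by
      simp [(huw p.2).2.2]⟩) ⟨?_, ?_⟩)
  · rintro ⟨c, g⟩ ⟨c', g'⟩ h
    have h' := congrArg Subtype.val h
    simp only [Prod.mk.injEq] at h'
    have : g = g' := by
      apply Subtype.ext; apply Units.ext
      rw [hg, hg, ← hs c, h'.1, h'.2, hs]
    subst this
    rw [Prod.mk.injEq]
    exact ⟨Units.ext (smul_left_injective F (huw g).1 h'.1), rfl⟩
  · rintro ⟨⟨x, y⟩, hx, hy, hxy⟩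
    have h2 := GS.exists_conj_tv hx hy hxy a
    obtain ⟨c, hc⟩ := h0.trans h2.symm
    let g : {g : GL (Fin (n + 2)) F // IsConj t g} := ⟨c * t * c⁻¹, _root_.isConj_iff.mpr ⟨c, rfl⟩⟩
    have hg' : (g.1 : Matrix (Fin (n + 2)) (Fin (n + 2)) F) = 1 + vecMulVec x y := by
      show c.1 * t.1 * (c⁻¹).1 = _
      rw [hc.eq]; simp
    rw [hg, add_right_inj] at hg'
    obtain ⟨d, h3, h4⟩ := vecMulVec_eq hx hy hg'.symm
    exact ⟨(d, g), Subtype.ext (Prod.ext h3.symm h4.symm)⟩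

theorem card_GL_step (q : ℕ) (hq : 1 ≤ q) (n : ℕ) : ∏ i : Fin (n + 1), (q ^ (n + 1) - q ^ (i : ℕ)) =
    (q ^ (n + 1) - 1) * q ^ n * ∏ i : Fin n, (q ^ n - q ^ (i : ℕ)) := by
  rw [Fin.prod_univ_succ]
  have : ∀ i : Fin n, q ^ (n + 1) - q ^ ((Fin.succ i : Fin (n + 1)) : ℕ) = q * (q ^ n - q ^ (i : ℕ)) := by
    intro i
    rw [Fin.val_succ, pow_succ', pow_succ', Nat.mul_sub]
  simp only [this, Finset.prod_mul_distrib]
  simp [mul_assoc]

end
end Cfsg.Agent.H9
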